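/-
The centralizer of a sign change on an octad.
-/
import Cfsg.Agent.Typ.A8
import Cfsg.Agent.M24.Cent3
import Cfsg.Agent.M24.Words

set_option autoImplicit false
set_option maxRecDepth 100000

namespace CA.Typ

open Subgroup CA.Fi CA.M24 Cfsg Equiv
open scoped Pointwise symmDiff

noncomputable section

local notation "Λ" => leechLattice

/-- the map to the quotient by the centre -/
abbrev mk1 : Co0 →* Spor.Co1 := QuotientGroup.mk' _

theorem mk1_surj (x : Spor.Co1) : ∃ g, mk1 g = x := QuotientGroup.mk'_surjective _ x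

theorem mk1_eq_one {a : Co0} : mk1 a = 1 ↔ a = 1 ∨ a = ng := (QuotientGroup.eq_one_iff a).trans mem_center_iff

theorem mk1_ng : mk1 ng = 1 := mk1_eq_one.2 (Or.inr rfl)

theorem mk1_eq {a b : Co0} : mk1 a = mk1 b ↔ a = b ∨ a = ng * b := by
  rw [← mul_inv_eq_one, ← map_inv, ← map_mul, mk1_eq_one, mul_inv_eq_one, mul_inv_eq_iff_eq_mul]

theorem ng_mul_eps {c : Finset Pt} (hc : c ∈ Cs) : ng * eps c = eps cᶜ := by
  rw [ng, eps_mul univ_mem_Cs hc]
  congr 1
  ext; simp [Finset.mem_symmDiff]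

theorem mk1_compl {c : Finset Pt} (hc : c ∈ Cs) : mk1 (eps cᶜ) = mk1 (eps c) := by
  rw [← ng_mul_eps hc, map_mul, mk1_ng, one_mul]

theorem card_map_mk1 {K : Subgroup Co0} (h : ng ∈ K) : Nat.card K = 2 * Nat.card (K.map mk1) := by
  have e : mk1.ker ⊓ K = zpowers ng := by
    ext x
    rw [mem_inf, MonoidHom.mem_ker, mk1_eq_one, mem_zpowers_iff_of_sq ng_mul_ng]
    exact ⟨And.left, fun e => ⟨e, by rcases e with rfl | rfl; exacts [one_mem _, h]⟩⟩
  rw [← card_eq_ker_mul_map mk1 K, e, Nat.card_zpowers, orderOf_ng]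

theorem wordC_append (l l' : Word) : wordC (l ++ l') = wordC l' * wordC l := by
  induction l with
  | nil => exact (mul_one _).symm
  | cons r l ih => rw [List.cons_append, wordC, wordC, ih, mul_assoc]

/-- two words give the same automorphism -/
def weq (l l' : Word) : Bool :=
  band (band (wordOk l) (wordOk l'))
    (allR (fun p => wordGo l (fun A => wordGo l' (fun B => Nat.beq A B) (e8N p)) (e8N p)) 24)

theorem weq_spec {l l' : Word} (h : weq l l' = true) : wordC l = wordC l' := by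
  rw [weq, band_eq_true, band_eq_true] at h
  refine ext_e8 fun p => ?_
  obtain ⟨A, e1, h2⟩ := wordGo_spec h.1.1 (allR_eq_true.1 h.2 _ (idx_lt p)) (vN_e8N _ ▸ e8_mem _)
  obtain ⟨B, e2, h3⟩ := wordGo_spec h.1.2 h2 (vN_e8N _ ▸ e8_mem _)
  rw [vN_e8N] at e1 e2
  rw [e1, e2, beq_iff.1 h3]

theorem act_e8_symm (g : Co0) (p i : Pt) : act g (e8 p) i = act g⁻¹ (e8 i) p := by
  have h1 := dot_act g (e8_mem p) (act_mem g⁻¹ (e8_mem i))
  rw [act_act_inv, dot_e8, dot_comm, dot_e8] at h1
  omega

theorem sgn_e8_of_notMem {c : Finset Pt} {p : Pt} (h : p ∉ c) : sgn c (e8 p) = e8 p :=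
  sgn_eq_self_of fun _ hi => e8_ne (by rintro rfl; exact h hi)

theorem sgn_e8_of_mem {c : Finset Pt} {p : Pt} (h : p ∈ c) : sgn c (e8 p) = -e8 p := by
  funext i
  by_cases hi : i ∈ c
  · exact sgn_of_mem _ hi
  · rw [sgn_of_notMem _ hi, Pi.neg_apply, e8_ne (by rintro rfl; exact hi h), neg_zero]

theorem zero_of_sgn {c : Finset Pt} {x : Vec} (h : sgn c x = x) {i : Pt} (hi : i ∈ c) : x i = 0 := by
  have := congrFun h i
  rw [sgn_of_mem _ hi] at this
  omega

theorem zero_of_sgn' {c : Finset Pt} {x : Vec} (h : sgn c x = -x) {i : Pt} (hi : i ∉ c) : x i = 0 := by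
  have := congrFun h i
  rw [sgn_of_notMem _ hi, Pi.neg_apply] at this
  omega

theorem card_le_of_conj {c d : Finset Pt} (hc : c ∈ Cs) (hd : d ∈ Cs) {g : Co0} (h : g * eps c = eps d * g) :
    d.card ≤ c.card := by
  have h1 : ∀ p ∈ cᶜ, ∑ i ∈ dᶜ, act g⁻¹ (e8 i) p ^ 2 = 64 := fun p hp => by
    have e := congrArg (act · (e8 p)) h
    simp only [act_mul] at e
    rw [act_eps hc (e8_mem p), sgn_e8_of_notMem (Finset.mem_compl.1 hp), act_eps hd (act_mem _ (e8_mem p))] at e
    rw [← sqNorm_e8 p, ← sqNorm_act g,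
      sq_eq_of_support dᶜ fun i hi => zero_of_sgn e.symm (by simpa using hi)]
    exact Finset.sum_congr rfl fun i _ => by rw [act_e8_symm g p]
  have h2 : ∀ i ∈ dᶜ, ∑ p ∈ cᶜ, act g⁻¹ (e8 i) p ^ 2 ≤ 64 := fun i _ => by
    rw [← sqNorm_e8 i, ← sqNorm_act g⁻¹, sq_eq_of_support Finset.univ fun i hi => absurd (Finset.mem_univ i) hi]
    exact Finset.sum_le_sum_of_subset_of_nonneg (Finset.subset_univ _) fun _ _ _ => sq_nonneg _
  have h3 := Finset.sum_le_sum h2
  rw [Finset.sum_comm, Finset.sum_congr rfl h1, Finset.sum_const, Finset.sum_const, Finset.card_compl,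
    Finset.card_compl, card_Pt, nsmul_eq_mul, nsmul_eq_mul] at h3
  have := c.card_le_univ
  have := d.card_le_univ
  rw [card_Pt] at *
  omega

theorem conj_oct {o o' : Finset Pt} (ho : o ∈ octads) (ho' : o' ∈ octads) {g : Co0}
    (h : mk1 g * mk1 (eps o) = mk1 (eps o') * mk1 g) : g * eps o = eps o' * g := by
  rw [← map_mul, ← map_mul, mk1_eq] at h
  refine h.resolve_right fun h => ?_
  rw [mem_octads] at ho ho'
  rw [← mul_assoc, ng_mul_eps ho'.1] at h
  have := card_le_of_conj ho.1 (compl_mem_Cs ho'.1) h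
  rw [Finset.card_compl, card_Pt] at this
  omega

theorem mon_of_e8 {g : Co0} {p q : Pt} (h : ∀ i, i ≠ q → act g (e8 p) i = 0) : g ∈ Mon := by
  have h1 := sq_eq_of_support (x := act g (e8 p)) {q} fun i hi => h i (by simpa using hi)
  rw [sqNorm_act, sqNorm_e8, Finset.sum_singleton] at h1
  have h2 : (act g (e8 p) q - 8) * (act g (e8 p) q + 8) = 0 := by linear_combination -h1
  have h3 : act g (e8 p) = e8 q ∨ act g (e8 p) = -e8 q := by
    refine (mul_eq_zero.1 h2).imp (fun e => funext fun i => ?_) fun e => funext fun i => ?_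
    · by_cases hi : i = q
      · rw [hi, e8_self]; omega
      · rw [h i hi, e8_ne hi]
    · by_cases hi : i = q
      · rw [hi, Pi.neg_apply, e8_self]; omega
      · rw [h i hi, Pi.neg_apply, e8_ne hi, neg_zero]
  refine mem_Mon.2 (((cong_e8 none p).act (e8_mem _) g).trans (Cong.trans ?_ (cong_e8 q none)))
  rcases h3 with e | e <;> rw [e]
  exacts [Cong.refl _, cong_neg (e8_mem _)]

theorem mono_comm_eps {c d : Finset Pt} (hc : c ∈ Cs) (hd : d ∈ Cs) {π : Perm Pt} (hπ : π ∈ M24) :
    Commute (eps c * pC π) (eps d) ↔ π • d = d := by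
  have hd' := smul_mem_Cs hπ hd
  rw [Commute, SemiconjBy, mul_assoc, pC_mul_eps hπ hd, ← mul_assoc, ← mul_assoc, mul_left_inj, eps_mul hc hd',
    eps_mul hd hc, symmDiff_comm d]
  exact ⟨fun e => symmDiff_right_injective _ (eps_inj (symmDiff_mem_Cs hc hd') (symmDiff_mem_Cs hc hd) e),
    fun e => by rw [e]⟩

/-! ### The standard octad -/

/-- the standard octad -/
abbrev OO : Finset Pt := unmask O0

theorem OO_Cs : OO ∈ Cs := (mem_octads.1 O0_mem).1
theorem none_mem_OO : (none : Pt) ∈ OO := by decide +kernel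

/-- the automorphisms fixing the vectors supported on the octad -/
def KK : Subgroup Co0 where
  carrier := {g | ∀ p ∈ OO, act g (e8 p) = e8 p}
  one_mem' := fun _ _ => act_one _
  mul_mem' := fun {a b} ha hb p hp => by rw [act_mul, hb p hp, ha p hp]
  inv_mem' := fun {a} ha p hp => by rw [← ha p hp, act_inv_act, ha p hp]

theorem mem_KK {g : Co0} : g ∈ KK ↔ ∃ c ∈ Cs, Disjoint c OO ∧ ∃ π ∈ M24, (∀ p ∈ OO, π p = p) ∧ g = eps c * pC π := by
  constructor
  · intro h
    obtain ⟨c, hc, π, hπ, rfl⟩ := mono_of_cong (g := g) (by rw [h _ none_mem_OO]; exact Cong.refl _)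
    have key : ∀ p ∈ OO, π p ∉ c ∧ π p = p := fun p hp => by
      have := h p hp
      rw [act_mono_e8 hπ hc] at this
      by_cases e : π p ∈ c
      · rw [sgn_e8_of_mem e] at this
        exact absurd this.symm (e8_ne_neg _ _)
      · rw [sgn_e8_of_notMem e] at this
        exact ⟨e, e8_inj this⟩
    exact ⟨c, hc, Finset.disjoint_right.2 fun p hp => (key p hp).2 ▸ (key p hp).1, π, hπ,
      fun p hp => (key p hp).2, rfl⟩
  · rintro ⟨c, hc, hd, π, hπ, hf, rfl⟩ p hp
    rw [act_mono_e8 hπ hc, hf p hp, sgn_e8_of_notMem (Finset.disjoint_right.1 hd hp)]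

theorem ng_notMem_KK : ng ∉ KK := fun h => by
  have := h _ none_mem_OO
  rw [act_ng (e8_mem _)] at this
  exact e8_ne_neg _ _ this.symm

theorem eps_mem_KK {c : Finset Pt} (hc : c ∈ Cs) (hd : Disjoint c OO) : eps c ∈ KK :=
  mem_KK.2 ⟨c, hc, hd, 1, one_mem _, fun _ _ => rfl, by rw [pC_one, mul_one]⟩

theorem pC_mem_KK {π : Perm Pt} (hπ : π ∈ M24) (h : ∀ p ∈ OO, π p = p) : pC π ∈ KK :=
  mem_KK.2 ⟨∅, empty_mem_Cs, Finset.disjoint_empty_left _, π, hπ, h, by rw [eps_empty, one_mul]⟩

theorem KK_fix {g : Co0} (hg : g ∈ KK) {x : Vec} (hx : x ∈ Λ) (h : ∀ i, i ∉ OO → x i = 0) : act g x = x := by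
  obtain ⟨c, hc, hd, π, hπ, hf, rfl⟩ := mem_KK.1 hg
  have e : prm π x = x := funext fun i => by
    by_cases hi : i ∈ OO
    · conv_lhs => rw [← hf i hi, prm_apply]
    · rw [h i hi]
      exact h _ fun hj => hi (by rw [← π.apply_symm_apply i]; exact (hf _ hj).symm ▸ hj)
  rw [act_mul, act_pC hπ hx, e, act_eps hc hx]
  exact sgn_eq_self_of fun i hi => h i (Finset.disjoint_left.1 hd hi)

theorem supp_act {g : Co0} (hg : Commute g (eps OO)) {x : Vec} (hx : x ∈ Λ) (h : ∀ i, i ∉ OO → x i = 0) (i : Pt)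
    (hi : i ∉ OO) : act g x i = 0 := by
  have e : sgn OO x = -x := funext fun i => by
    by_cases hi : i ∈ OO
    · exact sgn_of_mem _ hi
    · rw [sgn_of_notMem _ hi, Pi.neg_apply, h i hi, neg_zero]
  refine zero_of_sgn' ?_ hi
  rw [← act_eps OO_Cs (act_mem _ hx), ← act_mul, ← hg.eq, act_mul, act_eps OO_Cs hx, e, act_neg _ hx]

theorem KK_conj {g x : Co0} (hg : Commute g (eps OO)) (hx : x ∈ KK) : g * x * g⁻¹ ∈ KK := fun p hp => by
  rw [act_mul, act_mul, KK_fix hx (act_mem _ (e8_mem p))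
    (supp_act hg.inv_left (e8_mem p) fun i hi => e8_ne (by rintro rfl; exact hi hp)), act_act_inv]

def TL : List ℕ := [nat_lit 984818244535754528103549039458486304, nat_lit 968708902336673183175954409307867168, nat_lit 979121071158219704299181131031480352, nat_lit 983548720921252936276249910206105632, nat_lit 963721886883755259286232606933354528, nat_lit 981818691054096003685363657089320992, nat_lit 970499966350631336865513127433832480, nat_lit 961365507626256404119956257276790816, nat_lit 965128854020860192151391391390468128, nat_lit 975346028712660580592452217730074656, nat_lit 966182099583441531322624363496310816, nat_lit 976448692869377735270425038196672544, nat_lit 971592882964418941354553515258775584, nat_lit 972512676110088067912772961567868960, nat_lit 980224387687010295957922729495201824, nat_lit 967812279691448225500382947153381408]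
def DL : List ℕ := [nat_lit 0, nat_lit 6889680, nat_lit 4038912, nat_lit 5538256, nat_lit 832080, nat_lit 6656640, nat_lit 3216208, nat_lit 5780352, nat_lit 6100032, nat_lit 3421328, nat_lit 6337856, nat_lit 628112, nat_lit 5350928, nat_lit 3704512, nat_lit 7079696, nat_lit 337856, nat_lit 7903248, nat_lit 1161408, nat_lit 4536592, nat_lit 2890176, nat_lit 7612992, nat_lit 1903248, nat_lit 4819776, nat_lit 2141072, nat_lit 2460752, nat_lit 5024896, nat_lit 1584464, nat_lit 7409024, nat_lit 2702848, nat_lit 4202192, nat_lit 1351424, nat_lit 8241104]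

theorem mask_OOc : mask OOᶜ = 8241104 := by rw [mask_compl, mask_O0]; decide +kernel

theorem mem_TL {π : Perm Pt} (hπ : π ∈ M24) (h : ∀ p ∈ OO, π p = p) : code π ∈ TL := by
  have h1 := allL_eq_true.1 (show allL (fun r => bimp (Nat.beq (dig r 5) 5) (memL r TL)) RL = true by
    decide +kernel) _ (code_mem_RL hπ (h _ (by decide +kernel)) (h _ (by decide +kernel)) (h _ (by decide +kernel))
      (h _ (by decide +kernel)) (h _ (by decide +kernel)))
  refine memL_eq_true.1 (bimp_eq_true.1 h1 (beq_iff.2 ?_))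
  rw [dig_code π (by norm_num), h _ (by decide +kernel), idx_pt (by norm_num)]

theorem of_mem_TL {r : ℕ} (h : r ∈ TL) : ∃ π ∈ M24, code π = r ∧ ∀ p ∈ OO, π p = p := by
  have h1 := allL_eq_true.1 (show allL (fun r => band (chk r)
    (allR (fun i => bimp (tb O0 i) (Nat.beq (dig r i) i)) 24)) TL = true by decide +kernel) _ h
  rw [band_eq_true, allR_eq_true] at h1
  refine ⟨_, perm_mem_M24 h1.1, code_perm_chk h1.1, fun p hp => ?_⟩
  rw [apply_eq, code_perm_chk h1.1, beq_iff.1 (bimp_eq_true.1 (h1.2 _ (idx_lt p)) (tb_eq_true.2 (mem_unmask.1 hp))),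
    pt_idx]

theorem mem_DL {c : Finset Pt} (hc : c ∈ Cs) (h : Disjoint c OO) : mask c ∈ DL := by
  obtain ⟨k, hk, e⟩ := exists_cw hc
  have h1 := allP_zero (show allP (fun k => force (cw k) fun c => bimp (Nat.beq (Nat.land c O0) 0) (memL c DL)) 12 0
    = true by decide +kernel) k hk
  rw [force_eq, e] at h1
  exact memL_eq_true.1 (bimp_eq_true.1 h1 (beq_iff.2 (mask_O0 ▸ disjoint_iff_mask.1 h)))

theorem of_mem_DL {m : ℕ} (h : m ∈ DL) : ∃ c ∈ Cs, mask c = m ∧ Disjoint c OO := by
  have h1 := allL_eq_true.1 (show allL (fun c => band (isC c) (Nat.beq (Nat.land c O0) 0)) DL = true by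
    decide +kernel) _ h
  rw [band_eq_true] at h1
  obtain ⟨a, b⟩ := unmask_mem_Cs h1.1
  exact ⟨_, a, b, disjoint_iff_mask.2 (by rw [b, mask_O0]; exact beq_iff.1 h1.2)⟩

theorem tr_comm {π ρ : Perm Pt} (hπ : π ∈ M24) (h : ∀ p ∈ OO, π p = p) (hρ : ρ ∈ M24) (h' : ∀ p ∈ OO, ρ p = p) :
    π * ρ = ρ * π :=
  commB_code.1 (allL_eq_true.1 (allL_eq_true.1 (show allL (fun r => allL (commB r) TL) TL = true by decide +kernel)
    _ (mem_TL hπ h)) _ (mem_TL hρ h'))

theorem tr_smul {π : Perm Pt} (hπ : π ∈ M24) (h : ∀ p ∈ OO, π p = p) {c : Finset Pt} (hc : c ∈ Cs)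
    (hd : Disjoint c OO) : π • c = c ∨ π • c = c ∆ OOᶜ := by
  have h1 := allL_eq_true.1 (allL_eq_true.1 (show allL (fun r => allL (fun c => force (mapp r c) fun d =>
    bor (Nat.beq d c) (Nat.beq d (Nat.xor c 8241104))) DL) TL = true by decide +kernel)
    _ (mem_TL hπ h)) _ (mem_DL hc hd)
  rw [force_eq, mapp_code, bor_eq_true, beq_iff, beq_iff, ← mask_OOc, ← mask_symmDiff] at h1
  exact h1.imp (fun e => mask_inj e) fun e => mask_inj e

theorem tr_eq_one {π : Perm Pt} (hπ : π ∈ M24) (h : ∀ p ∈ OO, π p = p)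
    (H : ∀ c ∈ Cs, Disjoint c OO → π • c = c) : π = 1 := by
  have h1 := allL_eq_true.1 (show allL (fun r => bor (Nat.beq r pone) (anyL (fun c => bne' (mapp r c) c) DL)) TL
    = true by decide +kernel) _ (mem_TL hπ h)
  rw [bor_eq_true, beq_iff, anyL_eq_true, ← code_one] at h1
  refine code_inj (h1.resolve_right ?_)
  rintro ⟨m, hm, e⟩
  obtain ⟨c, hc, rfl, hd⟩ := of_mem_DL hm
  rw [bne'_eq_true, mapp_code, H c hc hd] at e
  exact e rfl

theorem tr_fixed {c : Finset Pt} (hc : c ∈ Cs) (H : ∀ π ∈ M24, (∀ p ∈ OO, π p = p) → π • c = c) :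
    c = ∅ ∨ c = OO ∨ c = OOᶜ ∨ c = Finset.univ := by
  obtain ⟨k, hk, e⟩ := exists_cw hc
  have h1 := allP_zero (show allP (fun k => force (cw k) fun c => bor (memL c [0, O0, 8241104, full])
    (anyL (fun r => bne' (mapp r c) c) TL)) 12 0 = true by decide +kernel) k hk
  rw [force_eq, e, bor_eq_true, memL_eq_true, anyL_eq_true] at h1
  rcases h1 with h1 | ⟨r, hr, h1⟩
  · rw [← mask_empty, ← mask_O0, ← mask_OOc, ← mask_univ] at h1
    simpa only [List.mem_cons, List.not_mem_nil, or_false, mask_inj.eq_iff] using h1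
  · obtain ⟨π, hπ, rfl, hf⟩ := of_mem_TL hr
    rw [bne'_eq_true, mapp_code, H π hπ hf] at h1
    exact absurd rfl h1

theorem card_KK : Nat.card KK = 512 := by
  have c1 : {c : Finset Pt | c ∈ Cs ∧ Disjoint c OO}.ncard = 32 :=
    (ncard_eq_countP mask _ DL (fun _ => true) mask_inj.injOn (by decide +kernel)
      (fun c hc => ⟨mem_DL hc.1 hc.2, rfl⟩) fun m hm _ => by
        obtain ⟨c, a, b, d⟩ := of_mem_DL hm
        exact ⟨c, ⟨a, d⟩, b⟩).trans rfl
  have c2 : {π : Perm Pt | π ∈ M24 ∧ ∀ p ∈ OO, π p = p}.ncard = 16 :=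
    (ncard_eq_countP code _ TL (fun _ => true) code_inj.injOn (by decide +kernel)
      (fun c hc => ⟨mem_TL hc.1 hc.2, rfl⟩) fun m hm _ => by
        obtain ⟨c, a, b, d⟩ := of_mem_TL hm
        exact ⟨c, ⟨a, d⟩, b⟩).trans rfl
  rw [show 512 = 32 * 16 from rfl, ← c1, ← c2, ← Nat.card_coe_set_eq, ← Nat.card_coe_set_eq, ← Nat.card_prod]
  refine (Nat.card_congr (Equiv.ofBijective (fun a : {c : Finset Pt | c ∈ Cs ∧ Disjoint c OO} ×
    {π : Perm Pt | π ∈ M24 ∧ ∀ p ∈ OO, π p = p} => (⟨eps a.1 * pC a.2,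
    mem_KK.2 ⟨_, a.1.2.1, a.1.2.2, _, a.2.2.1, a.2.2.2, rfl⟩⟩ : KK)) ⟨fun a b e => ?_, fun g => ?_⟩)).symm
  · have := mono_inj a.2.2.1 b.2.2.1 a.1.2.1 b.1.2.1 (congrArg Subtype.val e)
    exact Prod.ext (Subtype.ext this.1) (Subtype.ext this.2)
  · obtain ⟨c, hc, hd, π, hπ, hf, e⟩ := mem_KK.1 g.2
    exact ⟨(⟨c, hc, hd⟩, ⟨π, hπ, hf⟩), Subtype.ext e.symm⟩

theorem smul_OO {π : Perm Pt} (h : ∀ p ∈ OO, π p = p) : π • OO = OO := by
  rw [smul_congr_on (h := 1) h, one_smul]

theorem es_KK : ES KK (eps OOᶜ) := by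
  have hO := compl_mem_Cs OO_Cs
  have zc : ∀ x ∈ KK, Commute (eps OOᶜ) x := fun x hx => by
    obtain ⟨c, hc, -, π, hπ, hf, rfl⟩ := mem_KK.1 hx
    exact ((mono_comm_eps hc hO hπ).2 (by rw [smul_compl', smul_OO hf])).symm
  have ne : ∀ c ∈ Cs, c ≠ ∅ → eps c ≠ 1 := fun c hc h e => h (eps_inj hc empty_mem_Cs (e.trans eps_empty.symm))
  refine ⟨eps_mem_KK hO disjoint_compl_left, ne _ hO (by decide +kernel), eps_mul_self hO, zc, fun x hx H => ?_,
    fun x hx y hy => ?_, ?_⟩
  · obtain ⟨c, hc, hd, π, hπ, hf, rfl⟩ := mem_KK.1 hx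
    obtain rfl := tr_eq_one hπ hf fun d hd h => (mono_comm_eps hc hd hπ).1 (H _ (eps_mem_KK hd h))
    rw [pC_one, mul_one] at H ⊢
    rcases tr_fixed hc fun ρ hρ h => (mono_comm_eps empty_mem_Cs hc hρ).1
      (by rw [eps_empty, one_mul]; exact (H _ (pC_mem_KK hρ h)).symm) with rfl | rfl | rfl | rfl
    exacts [Or.inl eps_empty, absurd hd (by decide +kernel), Or.inr rfl, absurd hd (by decide +kernel)]
  · rw [← (zc _ (mul_mem hy hx)).eq]
    obtain ⟨c, hc, hd, π, hπ, hf, rfl⟩ := mem_KK.1 hx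
    obtain ⟨d, hc', hd', ρ, hρ, hf', rfl⟩ := mem_KK.1 hy
    rw [Commute, SemiconjBy, mono_mul hc hc' hπ hρ, mono_mul hc' hc hρ hπ, tr_comm hπ hf hρ hf', ← mul_assoc,
      eps_mul hO (symmDiff_mem_Cs hc' (smul_mem_Cs hρ hc))]
    rcases tr_smul hπ hf hc' hd' with e | e <;> rcases tr_smul hρ hf' hc hd with e' | e' <;> rw [e, e']
    · left; rw [symmDiff_comm]
    · right; rw [symmDiff_left_comm OOᶜ, symmDiff_left_comm OOᶜ, symmDiff_self, symmDiff_bot, symmDiff_comm]
    · right; rw [symmDiff_comm OOᶜ, symmDiff_comm d c, symmDiff_assoc]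
    · left; rw [symmDiff_left_comm]
  · obtain ⟨c, hc, e, hd⟩ := of_mem_DL (m := 1351424) (by decide +kernel)
    refine ⟨_, eps_mem_KK hc hd, ne c hc ?_, fun h => ?_⟩
    · rintro rfl
      rw [mask_empty] at e
      exact absurd e (by decide)
    · rw [eps_inj hc hO h, mask_OOc] at e
      exact absurd e (by decide)

theorem eq_one_of_fix_OOc {π : Perm Pt} (hπ : π ∈ M24) (h : ∀ p ∈ OOᶜ, π p = p) : π = 1 :=
  eq_one_of_refChk hπ [] (by simp) [([69395, 36294, 42232, 84464, 175681], full)] 8241104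
    (by rw [← mask_OOc, unmask_mask]; exact h) (by decide +kernel)

theorem cent_KK {g : Co0} (h : ∀ x ∈ KK, Commute g x) : g = 1 ∨ g = eps OO ∨ g = eps OOᶜ ∨ g = ng := by
  have key : ∀ p ∈ OOᶜ, ∀ i, i ≠ p → act g (e8 p) i = 0 := fun p hp i hi => by
    have h1 := allR_eq_true.1 (allR_eq_true.1 (show allR (fun p => allR (fun i => bor (bor (tb O0 p) (Nat.beq i p))
      (anyL (fun c => band (tb c p) (bnot (tb c i))) DL)) 24) 24 = true by decide +kernel) _ (idx_lt p)) _ (idx_lt i)
    simp only [bor_eq_true, band_eq_true, anyL_eq_true, bnot_eq_true, tb_eq_true, beq_iff, idx_inj.eq_iff] at h1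
    rcases h1 with (h1 | h1) | ⟨m, hm, h1, h2⟩
    · exact absurd (mem_unmask.2 h1) (Finset.mem_compl.1 hp)
    · exact absurd h1 hi
    obtain ⟨c, hc, rfl, hd⟩ := of_mem_DL hm
    rw [← mem_iff_mask] at h1 h2
    refine zero_of_sgn' ?_ h2
    rw [← act_eps hc (act_mem _ (e8_mem p)), ← act_mul, ← (h _ (eps_mem_KK hc hd)).eq, act_mul,
      act_eps hc (e8_mem p), sgn_e8_of_mem h1, act_neg _ (e8_mem p)]
  obtain ⟨c, hc, π, hπ, rfl⟩ := mem_Mon_iff.1 (mon_of_e8 (key (pt 4) (by decide +kernel)))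
  obtain rfl := eq_one_of_fix_OOc hπ fun p hp => by
    by_contra e
    have := key p hp _ e
    rw [act_mono_e8 hπ hc] at this
    rcases sgn_e8 c (π p) with r | r <;> rw [r] at this <;> simp [e8_self] at this
  rw [pC_one, mul_one] at h ⊢
  rcases tr_fixed hc fun ρ hρ h' => (mono_comm_eps empty_mem_Cs hc hρ).1
    (by rw [eps_empty, one_mul]; exact (h _ (pC_mem_KK hρ h')).symm) with rfl | rfl | rfl | rfl
  exacts [Or.inl eps_empty, Or.inr (Or.inl rfl), Or.inr (Or.inr (Or.inl rfl)), Or.inr (Or.inr (Or.inr rfl))]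

/-- the central involution -/
def zb : Spor.Co1 := mk1 (eps OO)

/-- the extraspecial group -/
def Qb : Subgroup Spor.Co1 := KK.map mk1

theorem comm_zb {g : Co0} : Commute (mk1 g) zb ↔ Commute g (eps OO) :=
  ⟨fun h => conj_oct O0_mem O0_mem h, fun h => h.map mk1⟩

theorem KK_inj : ∀ x ∈ KK, mk1 x = 1 → x = 1 := fun _ hx e =>
  (mk1_eq_one.1 e).resolve_right fun e => ng_notMem_KK (e ▸ hx)

theorem le_Qb : LE Qb zb := by
  have es : ES Qb zb := by
    have := es_KK.map mk1 KK_inj
    rwa [mk1_compl OO_Cs] at this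
  refine ⟨es, fun c H => ?_, fun c H => ?_⟩
  · obtain ⟨g, rfl⟩ := mk1_surj c
    have h1 := comm_zb.1 (H _ es.z_mem)
    rcases cent_KK (g := g) fun x hx => by
      have := KK_inj _ (mul_mem (KK_conj h1 hx) (inv_mem hx)) (by
        rw [map_mul, map_mul, map_mul, (H _ ⟨x, hx, rfl⟩).eq, map_inv, map_inv]; group)
      exact mul_inv_eq_iff_eq_mul.1 (mul_inv_eq_one.1 this) with rfl | rfl | rfl | rfl
    exacts [by rw [map_one]; exact one_mem _, es.z_mem, by rw [mk1_compl OO_Cs]; exact es.z_mem,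
      by rw [mk1_ng]; exact one_mem _]
  · obtain ⟨g, rfl⟩ := mk1_surj c
    rintro _ ⟨x, hx, rfl⟩
    exact ⟨_, KK_conj (comm_zb.1 H) hx, by rw [map_mul, map_mul, map_inv]⟩

theorem card_Qb : Nat.card Qb = 512 := by
  have := card_eq_ker_mul_map mk1 KK
  rwa [show mk1.ker ⊓ KK = ⊥ from eq_bot_iff.2 fun x hx => KK_inj x hx.2 hx.1, card_bot, one_mul, card_KK] at this

/-! ### The order of the centralizer -/

def wsO : List ℕ := [nat_lit 3199898767619454256009622083063731242116508649152783221378, nat_lit 3248938624927162525252506939818330773089252232805618843780, nat_lit 3248938624927162525252506939818330773089252232805618844800, nat_lit 3248938624927162525252506939818330773089252232805619105920, nat_lit 3248938624927162525252506939818330773089252232805685952640, nat_lit 3248938624927162525252506939818330773089252237203665354880, nat_lit 3248938624927162525252527709005764912399766354790935724160, nat_lit 3248938624927162873701650666859317359584850242936267374720]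
def usO : List ℕ := [nat_lit 3199898767619454254648471846192543248952496097440326124162, nat_lit 3175474244336714737254731792393941893930745264386768600961, nat_lit 3175091123374456589084500976065398718205784951705592365435, nat_lit 3028163858759774708452371264681144968688463571136643301761, nat_lit 3175282682394061550529989892630055123516868162796054871935, nat_lit 3175283433605948088550972262907853705507885768903678197631, nat_lit 3028163113382521688150224957882972458305139484658963153281, nat_lit 3028355420691009389605937298886555152588624643341976437121]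
def DDO : List (Word × ℕ) := [([(nat_lit 984818244535754528103549039458486304, nat_lit 0, true)], nat_lit 742504709852139063203291563469963505),
 ([(nat_lit 49827956952560385814812670539895831, nat_lit 0, false)], nat_lit 1225399489104953826496225995107336193),
 ([(nat_lit 983438760780361659950420824788470801, nat_lit 0, false)], nat_lit 10394734941214441798074158704492545),
 ([(nat_lit 984818244535754528103549039458486304, nat_lit 15777, false)], nat_lit 664619068763240676474114190100660445)]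
def LLO : ℕ := nat_lit 12334548864776956800335016657278380648645896974229697603631649469382907945609108747716537485039181070066071066422619562722981145941182737681039090479202213426514036611844138590569757544912902026266140225948755018220229107878214205111605826069727897468085673008464447800973440013683525661992269527991703293018265885484509260427797617716883563448935377587065826473480698820618133896455046359424048355520527734607541269661986111911170197125079315782611032957369381610628100236752158873998399627504167610102331977591766660693718238193831536637735136540490203919674687459267377966536791881633210419935110727045668738047644425127465323253443553603671236531722455915077602258605848031479759613484004566573402824488979002398705677747604400643891799591061714825140141013238817002740840360682154077471154057833041725737071922842993955238267005007533300538543843991696880585239683473106114478152968281019440763300716069094328612024281956354003149088057992701344327573565805306995915191215752027094397532932941856460369598765794562965234594073244994054550539308770037868416415534423384860258946542179117931205301813936614735644521094645184308480957136784410946214034510228323704640531999011038604884620126636140422608112301102910116144546320384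

theorem basO : basChk wsO usO 8 (nat_lit 664619068533544770747334646890102785) = true := by decide +kernel

theorem crdO : Crd (centralizer {eps OO}) (fun v => ∀ i, i ∉ OO → v i = 0) (2 ^ 8) (crdV usO) (cmbV wsO 8) := by
  obtain ⟨hw, hu, h3⟩ := basChk_spec basO
  refine ⟨cmbV_mem hw, cmbV_ind (fun v => ∀ i, i ∉ OO → v i = 0) (fun _ _ => rfl)
    (fun v w h h' i hi => by rw [Pi.add_apply, h i hi, h' i hi]; rfl) (by decide +kernel), fun v => crdV_lt usO v, h3,
    fun v hv h => ?_, fun v w _ h => crdV_cong hu h, fun h hh v hv e => supp_act (mem_cent_iff.1 hh) hv e⟩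
  let A : AddSubgroup Vec :=
    { carrier := {x | x ∈ Λ ∧ Cong x (cmbV wsO 8 (crdV usO x))}
      zero_mem' := ⟨zero_mem _, by rw [crdV_zero, cmbV_zero']; exact Cong.refl _⟩
      add_mem' := fun {a b} ha hb => ⟨add_mem ha.1 hb.1, by
        rw [crdV_add hu ha.1 hb.1]; exact (ha.2.add hb.2).trans (cmbV_xor hw _ _)⟩
      neg_mem' := fun {a} ha => ⟨neg_mem ha.1, by
        rw [crdV_cong hu (cong_neg ha.1)]; exact (cong_neg ha.1).trans ha.2⟩ }
  have key : ∀ f, band (lchk f) (force (crdF usO f) fun a => pkGo (cmbF wsO a 8) fun P => congChk f (vecN P)) = true →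
      vecF f ∈ A := fun f h => by
    rw [band_eq_true, force_eq] at h
    obtain ⟨P, e, h1⟩ := pkGo_spec h.2
    refine ⟨mem_of_lchk h.1, ?_⟩
    rw [crdV_vecF]
    exact (show vN P = cmbV wsO 8 _ from e) ▸ cong_of_congChk h1
  have h4 : ∀ p ∈ OO, vp p none ∈ A := fun p hp => by
    have := key _ (bimp_eq_true.1 (allR_eq_true.1 (show allR (fun p => bimp (tb O0 p)
      (band (lchk fun i => 4 * (bz (2 ^ p) i + bz (2 ^ 23) i)) (force (crdF usO fun i => 4 * (bz (2 ^ p) i + bz (2 ^ 23) i))
      fun a => pkGo (cmbF wsO a 8) fun P => congChk (fun i => 4 * (bz (2 ^ p) i + bz (2 ^ 23) i)) (vecN P)))) 24 = true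
      by decide +kernel) _ (idx_lt p)) (tb_eq_true.2 (mem_unmask.1 hp)))
    rwa [show ∀ p : Pt, (vecF fun i => 4 * (bz (2 ^ idx p) i + bz (2 ^ 23) i)) = vp p none by decide +kernel] at this
  have h2 : (fun i => 2 * ind OO i) ∈ A := by
    have := key (fun i => 2 * bz O0 i) (by decide +kernel)
    rwa [show (vecF fun i => 2 * bz O0 i) = fun i => 2 * ind OO i by decide +kernel] at this
  obtain ⟨m, hm, c, hc, w, e, k, hk⟩ := leech_cases hv
  have h5 : ∀ i, i ∉ OO → m = 0 ∧ i ∉ c ∧ w i = 0 := fun i hi => by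
    have := e i
    rw [h i hi] at this
    rcases ind_cases c i with ⟨a, b⟩ | ⟨a, b⟩ <;> rw [b] at this
    · omega
    · exact ⟨by omega, a, by omega⟩
  obtain rfl := (h5 (pt 4) (by decide +kernel)).1
  have h6 : c ⊆ OO := fun i hi => by_contra fun e => (h5 i e).2.1 hi
  have h7 : (fun i => 2 * ind c i) ∈ A := by
    have c8 : OO.card = 8 := (mem_octads.1 O0_mem).2
    have := Finset.card_le_card h6
    rcases card_of_mem_Cs hc with r | r | r | r | r
    · rw [Finset.card_eq_zero.1 r, ind_empty]; exact zero_mem A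
    · rwa [Finset.eq_of_subset_of_card_le h6 (by omega)]
    all_goals omega
  have : v = (fun i => 2 * ind c i) + (∑ p ∈ OO, w p • vp p none - k • vp none none) := by
    funext i
    rw [Finset.sum_subset (Finset.subset_univ OO) fun p _ hp => by rw [(h5 p hp).2.2, zero_smul]]
    simp only [e i, vp, Pi.add_apply, Pi.sub_apply, Finset.sum_apply, Pi.smul_apply, smul_eq_mul, mul_add,
      Finset.sum_add_distrib, ← Finset.sum_mul, hk]
    have : ∑ p, w p * (4 * ind {p} i) = 4 * w i := by simp [ind, mul_comm]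
    rw [this]; ring
  exact (this ▸ add_mem h7 (sub_mem (sum_mem fun p hp => zsmul_mem (h4 p hp) _) (zsmul_mem (h4 _ none_mem_OO) _)) :
    v ∈ A).2

/-- the sign change on the standard octad as a word -/
def zW : Word := [(pone, O0, false)]

theorem comm_zW {l : Word} (h : weq (l ++ zW) (zW ++ l) = true) : Commute (wordC l) (eps OO) := by
  have := weq_spec h
  rwa [wordC_append, wordC_append, zW, wordC_eps, eq_comm] at this

theorem card_cent_Mon : Nat.card ↥(centralizer {eps OO} ⊓ Mon) = 4096 * 322560 := by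
  rw [← card_stab_octad O0_mem, ← ncard_Cs, ← Nat.card_coe_set_eq, ← Nat.card_prod]
  refine (Nat.card_congr (Equiv.ofBijective (fun a : Cs × St OO => (⟨eps a.1 * pC a.2,
    mem_cent_iff.2 ((mono_comm_eps a.1.2 OO_Cs a.2.2.1).2 a.2.2.2), mem_Mon_iff.2 ⟨_, a.1.2, _, a.2.2.1, rfl⟩⟩ :
      ↥(centralizer {eps OO} ⊓ Mon))) ⟨fun a b e => ?_, fun g => ?_⟩)).symm
  · have := mono_inj a.2.2.1 b.2.2.1 a.1.2 b.1.2 (congrArg Subtype.val e)
    exact Prod.ext (Subtype.ext this.1) (Subtype.ext this.2)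
  · obtain ⟨c, hc, π, hπ, e⟩ := mem_Mon_iff.1 g.2.2
    exact ⟨(⟨c, hc⟩, ⟨π, hπ, (mono_comm_eps hc OO_Cs hπ).1 (e ▸ mem_cent_iff.1 g.2.1)⟩), Subtype.ext e.symm⟩

theorem card_cent_OO : Nat.card (centralizer ({eps OO} : Set Co0)) = 135 * (4096 * 322560) := by
  obtain ⟨hw, hu, -⟩ := basChk_spec basO
  have he : ∀ i, i ∉ OO → e8 none i = 0 := fun i hi => e8_ne (by rintro rfl; exact hi none_mem_OO)
  have hpt : (crdO.pt (e8 none) : ℕ) = 254 :=
    (congrArg (crdV usO) (vN_e8N none).symm).trans ((crdV_vecF _ _).trans (by decide +kernel))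
  have hbf := bfsChk_spec (show bfsChk (DDO.map (·.2)) [254, 0, 1] LLO 8 = true by decide +kernel) crdO.rho ⊤ (by
    intro T hT
    obtain ⟨d, hd, rfl⟩ := List.mem_map.1 hT
    have h1 := allL_eq_true.1 (show allL (fun d => band (wordOk d.1) (band (weq (d.1 ++ zW) (zW ++ d.1))
      (matChk d.1 wsO usO 8 d.2))) DDO = true by decide +kernel) d hd
    rw [band_eq_true, band_eq_true] at h1
    exact ⟨⟨_, mem_cent_iff.2 (comm_zW h1.2.1)⟩, mem_top _, fun a => matChk_spec hw hu h1.1 h1.2.2 a⟩)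
  have hr := short_roots crdO he (SP := [(0, nat_lit 3150858910311745638317572730080710985337652928985868304512),
    (1, nat_lit 3199898767619454256009622083063731242116508649152783221378)]) (by decide +kernel)
  have horb : ∀ a, a ∈ crdO.orbE (e8 none) ↔ lb LLO a = 0 := fun a => by
    obtain ⟨s, -, e⟩ := hbf a
    refine ⟨fun h => hroots_of crdO he hr _ ((crdO.orbE_rho s).2 h) _ e.symm, fun h => (crdO.orbE_rho s).1 ⟨1, ?_⟩⟩
    rw [map_one]
    exact Fin.ext (hpt.trans (h ▸ e).symm)
  rw [crdO.card_H he, card_cent_Mon, ← show cntR (fun a => Nat.beq (lb LLO a) 0) (2 ^ 8) = 135 by decide +kernel,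
    ← ncard_fin]
  exact congrArg (· * _) (congrArg _ (Set.ext fun a => (horb a).trans beq_iff.symm))

theorem cent_zb : centralizer {zb} = (centralizer {eps OO}).map mk1 := by
  ext x
  obtain ⟨g, rfl⟩ := mk1_surj x
  exact ⟨fun h => ⟨g, mem_cent_iff.2 (comm_zb.1 (mem_cent_iff.1 h)), rfl⟩,
    fun ⟨k, hk, e⟩ => e ▸ mem_cent_iff.2 (comm_zb.2 (mem_cent_iff.1 hk))⟩

theorem card_cent_zb : Nat.card (centralizer ({zb} : Set Spor.Co1)) = 512 * 174182400 := by
  have := card_map_mk1 (K := centralizer {eps OO}) (mem_cent_iff.2 (ng_comm _).symm)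
  rw [card_cent_OO, ← cent_zb] at this
  omega

/-- an octad disjoint from the standard one -/
abbrev O1 : Finset Pt := unmask 1351424

theorem O1_mem : O1 ∈ octads := (unmask_mem_octads (by decide +kernel)).1

/-- an element interchanging the two octads -/
def sw : Perm Pt := perm (nat_lit 858211620949349785901889362837382731)

theorem sw_mem : sw ∈ M24 := perm_mem_M24 (by decide +kernel)

theorem sw_OO : sw • OO = O1 ∧ sw • O1 = OO := by
  constructor <;> apply mask_inj <;> rw [← mapp_code, sw, code_perm_chk (by decide +kernel)] <;> decide +kernel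

/-- the second involution -/
def sb : Spor.Co1 := mk1 (eps O1)

theorem sw_zb : mk1 (pC sw) * zb * (mk1 (pC sw))⁻¹ = sb := by
  rw [zb, ← map_inv, ← map_mul, ← map_mul, pC_conj_eps sw_mem OO_Cs, sw_OO.1, sb]

theorem mk1_eps_inj {c d : Finset Pt} (hc : c ∈ Cs) (hd : d ∈ Cs) : mk1 (eps c) = mk1 (eps d) ↔ c = d ∨ c = dᶜ := by
  rw [mk1_eq, ng_mul_eps hd]
  exact or_congr ⟨eps_inj hc hd, congrArg _⟩ ⟨eps_inj hc (compl_mem_Cs hd), congrArg _⟩

theorem th_Co1 : ∃ Qs, TH Qb Qs zb sb 512 174182400 := by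
  have m : mk1 (pC sw) * zb * (mk1 (pC sw))⁻¹ ∈ Qb :=
    sw_zb ▸ ⟨_, eps_mem_KK (mem_octads.1 O1_mem).1 (by decide +kernel), rfl⟩
  have := le_Qb.pair m (le_Qb.mem_conj (card_Qb ▸ by norm_num) m) (by
    rw [sw_zb]
    exact fun e => absurd ((mk1_eps_inj OO_Cs (mem_octads.1 O1_mem).1).1 e) (by decide +kernel))
  exact ⟨_, sw_zb ▸ this, card_Qb, card_cent_zb⟩

end

end CA.Typ

theorem CA.Typ.realizeEqnsB1 : True := by
  have := @CA.Typ.LLO.eq_1
  have := @CA.Typ.LLO.eq_def
  have := @CA.Typ.LLO.congr_simp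
  have := @CA.Typ.mk1.eq_1
  have := @CA.Typ.mk1.eq_def
  have := @CA.Typ.mk1.congr_simp
  have := @CA.Typ.DL.eq_1
  have := @CA.Typ.DL.eq_def
  have := @CA.Typ.DL.congr_simp
  have := @CA.Typ.OO.eq_1
  have := @CA.Typ.OO.eq_def
  have := @CA.Typ.OO.congr_simp
  have := @CA.Typ.zb.eq_1
  have := @CA.Typ.zb.eq_def
  have := @CA.Typ.zb.congr_simp
  have := @CA.Typ.usO.eq_1
  have := @CA.Typ.usO.eq_def
  have := @CA.Typ.usO.congr_simp
  have := @CA.Typ.sb.eq_1
  have := @CA.Typ.sb.eq_def
  have := @CA.Typ.sb.congr_simp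
  have := @CA.Typ.zW.eq_1
  have := @CA.Typ.zW.eq_def
  have := @CA.Typ.zW.congr_simp
  have := @CA.Typ.wsO.eq_1
  have := @CA.Typ.wsO.eq_def
  have := @CA.Typ.wsO.congr_simp
  have := @CA.Typ.sw.eq_1
  have := @CA.Typ.sw.eq_def
  have := @CA.Typ.sw.congr_simp
  have := @CA.Typ.TL.eq_1
  have := @CA.Typ.TL.eq_def
  have := @CA.Typ.TL.congr_simp
  have := @CA.Typ.weq.eq_1
  have := @CA.Typ.weq.eq_def
  have := @CA.Typ.weq.congr_simp
  have := @CA.Typ.Qb.eq_1
  have := @CA.Typ.Qb.eq_def
  have := @CA.Typ.Qb.congr_simp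
  have := @CA.Typ.O1.eq_1
  have := @CA.Typ.O1.eq_def
  have := @CA.Typ.O1.congr_simp
  have := @CA.Typ.DDO.eq_1
  have := @CA.Typ.DDO.eq_def
  have := @CA.Typ.DDO.congr_simp
  have := @CA.Typ.KK.eq_1
  have := @CA.Typ.KK.eq_def
  have := @CA.Typ.KK.congr_simp
  trivial
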