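/-
Orthogonal groups over the field of order two: orthogonal sums and elements of order three.
-/
import Cfsg.Agent.Typ.A9
import Cfsg.Agent.M24.Sect
import Cfsg.Agent.Loc.Abs

set_option autoImplicit false

namespace CA.Typ

open Subgroup CA.Fi Cfsg.Agent.Orth QuadraticMap Cfsg

local notation "F" => ZMod 2

section
variable {V : Type*} [AddCommGroup V] [Module F V] {𝔮 : QuadraticForm F V}

theorem add_self2 (v : V) : v + v = 0 := by rw [add_eq_zero_iff_eq_neg, neg_two]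

theorem refl_two {w : V} (hw : 𝔮 w = 1) (x : V) : (refl 𝔮 w).1 x = x + polar 𝔮 x w • w := by
  rw [refl_apply, hw, div_one, sub_eq_add_neg, neg_two]

theorem polar_self2 (x : V) : polar 𝔮 x x = 0 := by rw [polar_self', show (2 : F) = 0 from rfl, zero_mul]

theorem refl_swap {a b : V} (ha : 𝔮 a = 1) (hb : 𝔮 b = 1) (h : polar 𝔮 a b = 1) : (refl 𝔮 (a + b)).1 a = b := by
  rw [refl_two (by rw [Q_add, ha, hb, h]; rfl), polar_add_right, polar_self2, h, zero_add, one_smul, ← add_assoc, add_self2,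
    zero_add]

theorem witt3 {a0 b0 : V} (ha : 𝔮 a0 = 1) (hb : 𝔮 b0 = 1) (hab : polar 𝔮 a0 b0 = 1)
    (h1 : ∀ a, 𝔮 a = 1 → a = a0 ∨ polar 𝔮 a a0 = 1 ∨ ∃ c, 𝔮 c = 1 ∧ polar 𝔮 a c = 1 ∧ polar 𝔮 c a0 = 1)
    (h2 : ∀ b, 𝔮 b = 1 → polar 𝔮 a0 b = 1 → b = b0 ∨ polar 𝔮 b b0 = 1 ∨
      ∃ c, 𝔮 c = 1 ∧ polar 𝔮 a0 c = 1 ∧ polar 𝔮 b c = 1 ∧ polar 𝔮 c b0 = 1)
    {a b : V} (a1 : 𝔮 a = 1) (b1 : 𝔮 b = 1) (ab : polar 𝔮 a b = 1) :
    ∃ k : OG 𝔮, k * (refl 𝔮 a * refl 𝔮 b) * k⁻¹ = refl 𝔮 a0 * refl 𝔮 b0 := by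
  obtain ⟨k, hk⟩ : ∃ k : OG 𝔮, k.1 a = a0 := by
    rcases h1 a a1 with rfl | e | ⟨c, c1, c2, c3⟩
    exacts [⟨1, rfl⟩, ⟨_, refl_swap a1 ha e⟩,
      ⟨refl 𝔮 (c + a0) * refl 𝔮 (a + c), by rw [OG.mul_apply, refl_swap a1 c1 c2, refl_swap c1 ha c3]⟩]
  have fx : ∀ {x y}, polar 𝔮 a0 x = 1 → polar 𝔮 a0 y = 1 → (refl 𝔮 (x + y)).1 a0 = a0 := fun hx hy =>
    refl_apply_of_orth (by rw [polar_add_right, hx, hy]; rfl)
  have b2 : 𝔮 (k.1 b) = 1 := by rw [OG.map_Q, b1]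
  have b3 : polar 𝔮 a0 (k.1 b) = 1 := by rw [← hk, OG.map_polar, ab]
  obtain ⟨l, l1, l2⟩ : ∃ l : OG 𝔮, l.1 a0 = a0 ∧ l.1 (k.1 b) = b0 := by
    rcases h2 _ b2 b3 with e | e | ⟨c, c1, c2, c3, c4⟩
    exacts [⟨1, rfl, e⟩, ⟨_, fx b3 hab, refl_swap b2 hb e⟩, ⟨refl 𝔮 (c + b0) * refl 𝔮 (k.1 b + c),
      by rw [OG.mul_apply, fx b3 c2, fx c2 hab], by rw [OG.mul_apply, refl_swap b2 c1 c3, refl_swap c1 hb c4]⟩]
  refine ⟨l * k, ?_⟩
  rw [← conj_mul, refl_conj, refl_conj, OG.mul_apply, OG.mul_apply, hk, l1, l2]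

theorem three_refl [Finite V] (hQ : Nondeg 𝔮) {g : OG 𝔮} (h3 : g ^ 3 = 1) (h1 : g ≠ 1)
    (h4 : {w | ∃ v, g.1 v + v = w}.ncard ≤ 4) :
    ∃ a b, 𝔮 a = 1 ∧ 𝔮 b = 1 ∧ polar 𝔮 a b = 1 ∧ g = refl 𝔮 a * refl 𝔮 b := by
  have c3 : ∀ v, g.1 (g.1 (g.1 v)) = v := fun v => by
    rw [← OG.mul_apply, ← OG.mul_apply, ← pow_three', h3, OG.one_apply]
  obtain ⟨v, hv⟩ : ∃ v, g.1 v + v ≠ 0 := by
    by_contra! H
    exact h1 (OG.ext fun v => by rw [OG.one_apply, eq_neg_of_add_eq_zero_left (H v), neg_two])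
  obtain ⟨a, ha⟩ : ∃ a, g.1 v + v = a := ⟨_, rfl⟩
  obtain ⟨b, hb⟩ : ∃ b, g.1 a = b := ⟨_, rfl⟩
  have gb : g.1 b = a + b := by
    rw [← hb, ← ha]; simp only [map_add, c3]
    rw [← add_zero (v + _), ← add_self2 (g.1 v)]; abel
  have a0 : a ≠ 0 := ha ▸ hv
  have b0 : b ≠ 0 := hb ▸ OG.apply_ne_zero g a0
  have ab : a ≠ b := fun e => a0 (by rw [← e, add_self2, hb] at gb; rw [e, gb])
  have ab0 : a + b ≠ 0 := gb ▸ OG.apply_ne_zero g b0
  have e : {0, a, b, a + b} = {w | ∃ v, g.1 v + v = w} := by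
    refine Set.eq_of_subset_of_ncard_le ?_ (h4.trans (Set.ncard_eq_four.2 ⟨0, a, b, a + b, a0.symm, b0.symm, ab0.symm, ab,
      by simpa using b0, by simpa using a0, rfl⟩).ge)
    rintro _ (rfl | rfl | rfl | rfl)
    exacts [⟨0, by simp⟩, ⟨v, ha⟩, ⟨g.1 v, by rw [← map_add, ha, hb]⟩, ⟨a, by rw [hb, add_comm]⟩]
  have dec : ∀ x, ∃ f w, g.1 f = f ∧ polar 𝔮 f a = 0 ∧ polar 𝔮 f b = 0 ∧ (w = 0 ∨ w = a ∨ w = b ∨ w = a + b) ∧ x = f + w :=
    fun x => by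
      have hf : g.1 (x + g.1 x + g.1 (g.1 x)) = x + g.1 x + g.1 (g.1 x) := by simp only [map_add, c3]; abel
      have h0 : polar 𝔮 (x + g.1 x + g.1 (g.1 x)) a = 0 := by
        rw [← ha, polar_add_right]
        conv_lhs => enter [1]; rw [← hf, OG.map_polar]
        exact add_self2 _
      refine ⟨_, g.1 (g.1 x) + g.1 x, hf, h0, by rw [← hf, ← hb, OG.map_polar, h0], e.ge ⟨_, rfl⟩, ?_⟩
      conv_lhs => rw [← add_zero x, ← add_self2 (g.1 x + g.1 (g.1 x))]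
      abel
  have p : polar 𝔮 a b = 1 := zmod_two_eq_one fun p => a0 (hQ a fun x => by
    obtain ⟨f, w, -, f1, -, hw, rfl⟩ := dec x
    rw [polar_add_right, polar_comm _ a f, f1]
    rcases hw with rfl | rfl | rfl | rfl <;> simp only [polar_self2, p, polar_add_right, polar_zero_right, add_zero])
  have q1 : 𝔮 b = 𝔮 a := by rw [← hb, OG.map_Q]
  have q2 : 𝔮 a = 1 := by
    have := OG.map_Q g b
    rw [gb, Q_add, p, q1] at this
    revert this; generalize 𝔮 a = t; revert t; decide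
  rw [q2] at q1
  have ra : (refl 𝔮 a * refl 𝔮 b).1 a = b := by
    rw [OG.mul_apply, refl_two q1, p, one_smul, add_comm, map_add, refl_two q2, refl_two q2, polar_self2, polar_comm, p]
    simp [add_assoc, add_self2]
  have rb : (refl 𝔮 a * refl 𝔮 b).1 b = a + b := by
    rw [OG.mul_apply, refl_two q1, polar_self2, zero_smul, add_zero, refl_two q2, polar_comm, p, one_smul, add_comm]
  refine ⟨a, b, q2, q1, p, OG.ext fun x => ?_⟩
  obtain ⟨f, w, f0, f1, f2, hw, rfl⟩ := dec x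
  rw [map_add, map_add, f0, OG.mul_apply _ _ f, refl_apply_of_orth f2, refl_apply_of_orth f1]
  rcases hw with rfl | rfl | rfl | rfl <;> simp only [map_zero, map_add, ra, rb, hb, gb]

theorem refl_nmem [FiniteDimensional F V] (hQ : Nondeg 𝔮) (h5 : 5 ≤ Module.finrank F V) (w : V) (hw : 𝔮 w = 1) :
    refl 𝔮 w ∉ commutator (OG 𝔮) := fun h => by
  have := Abelianization.commutator_subset_ker (dickson hQ h5) h
  rw [MonoidHom.mem_ker, dickson_refl hQ h5 (by simp [hw])] at this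
  exact absurd this (by decide)

theorem Wg.refl_nmem [FiniteDimensional F V] (h : Wg 𝔮) (w : V) (hw : 𝔮 w = 1) : refl 𝔮 w ∉ commutator (OG 𝔮) := fun H => by
  have : commutator (OG 𝔮) = ⊤ := eq_top_iff.2 fun g _ =>
    ((h.idx (fun _ _ => refl_mem_comm) hw).2 g).elim id (mul_mem_cancel_left H).1
  have e := h.index_comm
  rw [this, index_top] at e
  omega

end

section
variable {W W' : Type*} [AddCommGroup W] [Module F W] [AddCommGroup W'] [Module F W'] {Q1 : QuadraticForm F W}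
  {Q2 : QuadraticForm F W'}

/-- the isometries of the summands -/
def pinc (Q1 : QuadraticForm F W) (Q2 : QuadraticForm F W') : OG Q1 × OG Q2 →* OG (Q1.prod Q2) :=
  MonoidHom.mk' (fun g => ⟨g.1.1.prodCongr g.2.1, fun v => by simp [OG.map_Q]⟩) fun g h => OG.ext fun v => rfl

theorem pinc_apply (g : OG Q1 × OG Q2) (x : W × W') : (pinc Q1 Q2 g).1 x = (g.1.1 x.1, g.2.1 x.2) := rfl

theorem pinc_inj : Function.Injective (pinc Q1 Q2) := fun _ _ H => Prod.ext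
  (OG.ext fun v => congrArg (fun k : OG (Q1.prod Q2) => (k.1 (v, 0)).1) H)
  (OG.ext fun v => congrArg (fun k : OG (Q1.prod Q2) => (k.1 (0, v)).2) H)

theorem pinc_refl (w : W') : pinc Q1 Q2 (1, refl Q2 w) = refl (Q1.prod Q2) (0, w) := OG.ext fun x => by
  rw [pinc_apply, refl_apply, refl_apply]; ext <;> simp [OG.one_apply]

theorem pinc_refl' (w : W) : pinc Q1 Q2 (refl Q1 w, 1) = refl (Q1.prod Q2) (w, 0) := OG.ext fun x => by
  rw [pinc_apply, refl_apply, refl_apply]; ext <;> simp [OG.one_apply]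

theorem Nondeg.prod (h1 : Nondeg Q1) (h2 : Nondeg Q2) : Nondeg (Q1.prod Q2) := fun x hx =>
  Prod.ext (h1 _ fun y => by simpa using hx (y, 0)) (h2 _ fun y => by simpa using hx (0, y))

theorem exists_pinc (hQ : Nondeg Q2) {k : OG (Q1.prod Q2)} (h : ∀ w, (k.1 (0, w)).1 = 0)
    (h' : ∀ w, (k⁻¹.1 (0, w)).1 = 0) : ∃ g, pinc Q1 Q2 g = k := by
  have k2 : ∀ k : OG (Q1.prod Q2), (∀ w, (k.1 (0, w)).1 = 0) → ∀ w, (0, (k.1 (0, w)).2) = k.1 (0, w) :=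
    fun k h w => Prod.ext (h w).symm rfl
  have k1 : ∀ k : OG (Q1.prod Q2), (∀ w, (k⁻¹.1 (0, w)).1 = 0) → ∀ v, ((k.1 (v, 0)).1, 0) = k.1 (v, 0) :=
    fun k h v => Prod.ext rfl (hQ _ fun w => by
      have := OG.polar_left k (v, 0) (0, w)
      rw [polar_prod, polar_prod, h] at this
      simpa using this).symm
  let L : OG (Q1.prod Q2) → W →ₗ[F] W := fun k => (LinearMap.fst F W W').comp (k.1.toLinearMap.comp (LinearMap.inl F W W'))
  let R : OG (Q1.prod Q2) → W' →ₗ[F] W' := fun k => (LinearMap.snd F W W').comp (k.1.toLinearMap.comp (LinearMap.inr F W W'))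
  have hL : ∀ k v, L k v = (k.1 (v, 0)).1 := fun k v => rfl
  have hR : ∀ k v, R k v = (k.1 (0, v)).2 := fun k v => rfl
  refine ⟨(mkOG (L k) (L k⁻¹) (fun v => ?_) (fun v => ?_) (fun v => ?_),
    mkOG (R k) (R k⁻¹) (fun v => ?_) (fun v => ?_) (fun v => ?_)), OG.ext fun x => ?_⟩
  · rw [hL, hL, k1 k⁻¹ h, OG.self_apply_inv]
  · rw [hL, hL, k1 k h', OG.inv_apply_self]
  · have := OG.map_Q k (v, 0)
    rw [← k1 k h'] at this
    simpa [hL] using this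
  · rw [hR, hR, k2 _ h', OG.self_apply_inv]
  · rw [hR, hR, k2 _ h, OG.inv_apply_self]
  · have := OG.map_Q k (0, v)
    rw [← k2 k h] at this
    simpa [hR] using this
  · rw [pinc_apply, mkOG_apply, mkOG_apply, hL, hR]
    conv_rhs => rw [show x = (x.1, 0) + (0, x.2) by simp, map_add, ← k1 k h', ← k2 k h]
    simp

/-- a fixed point free self-centralizing isometry -/
structure FP (g : OG Q1) (p : ℕ) : Prop where
  ord : orderOf g = p
  fpf : ∀ v, g.1 v = v → v = 0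
  cen : ∀ k, Commute k g → k ∈ zpowers g

theorem FP.of {g : OG Q1} {p : ℕ} [Fact p.Prime] (hp : g ^ p = 1) (fpf : ∀ v, g.1 v = v → v = 0) {e : W} (he : e ≠ 0)
    (h1 : ∀ v, v ≠ 0 → Q1 v = Q1 e → ∃ i : Fin p, v = (g ^ i.val).1 e)
    (h2 : ∀ v, ∃ a b c d : F, v = a • e + b • g.1 e + c • g.1 (g.1 e) + d • g.1 (g.1 (g.1 e))) : FP g p := by
  refine ⟨orderOf_eq_prime hp fun h => he (fpf e (by rw [h]; rfl)), fpf, fun k hk => ?_⟩
  obtain ⟨i, hi⟩ := h1 _ (OG.apply_ne_zero k he) (OG.map_Q k e)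
  have s : ∀ v, k.1 v = (g ^ i.val).1 v → k.1 (g.1 v) = (g ^ i.val).1 (g.1 v) := fun v hv => by
    rw [← OG.mul_apply, hk.eq, OG.mul_apply, hv, ← OG.mul_apply, ← OG.mul_apply, ← pow_succ, ← pow_succ']
  rw [show k = g ^ i.val from OG.ext fun v => by
    obtain ⟨a, b, c, d, rfl⟩ := h2 v
    simp only [map_add, map_smul, hi, s _ hi, s _ (s _ hi), s _ (s _ (s _ hi))]]
  exact pow_mem (mem_zpowers g) _

theorem FP.cent {g : OG Q1} {p : ℕ} (h : FP g p) (hQ : Nondeg Q2) {k : OG (Q1.prod Q2)} (hk : Commute k (pinc Q1 Q2 (g, 1))) :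
    ∃ a ∈ zpowers g, ∃ b, pinc Q1 Q2 (a, b) = k := by
  have e : ∀ k : OG (Q1.prod Q2), Commute k (pinc Q1 Q2 (g, 1)) → ∀ w, (k.1 (0, w)).1 = 0 := fun k hk w => h.fpf _ (by
    have := congrArg (fun l : OG (Q1.prod Q2) => (l.1 (0, w)).1) hk.eq
    simpa [OG.mul_apply, pinc_apply, OG.one_apply] using this.symm)
  obtain ⟨⟨a, b⟩, rfl⟩ := exists_pinc hQ (e k hk) (e _ hk.inv_left)
  exact ⟨a, h.cen a (congrArg Prod.fst (pinc_inj (by simpa only [map_mul] using hk.eq) :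
    ((a, b) * (g, 1) : OG Q1 × OG Q2) = (g, 1) * (a, b))), b, rfl⟩

theorem FP.card {g : OG Q1} {p : ℕ} (h : FP g p) (hQ : Nondeg Q2) :
    Nat.card (centralizer ({pinc Q1 Q2 (g, 1)} : Set _)) = p * Nat.card (OG Q2) := by
  have : centralizer {pinc Q1 Q2 (g, 1)} = ((zpowers g).prod ⊤).map (pinc Q1 Q2) := by
    ext k
    rw [mem_cent_iff]
    refine ⟨fun hk => ?_, ?_⟩
    · obtain ⟨a, ha, b, rfl⟩ := h.cent hQ hk
      exact ⟨(a, b), ⟨ha, trivial⟩, rfl⟩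
    · rintro ⟨⟨_, b⟩, ⟨⟨i, rfl⟩, -⟩, rfl⟩
      exact Commute.map (Commute.prod ((Commute.refl g).zpow_left i) (Commute.one_right b)) _
  rw [this, card_map_of_injective pinc_inj, Nat.card_congr (prodEquiv _ _).toEquiv, Nat.card_prod, Nat.card_zpowers, h.ord,
    card_top]

end

end CA.Typ

theorem CA.Typ.realizeEqnsC1 : True := by
  have := @CA.Typ.pinc.eq_1.{0,0}
  have := @CA.Typ.pinc.eq_def.{0,0}
  have := @CA.Typ.pinc.congr_simp.{0,0}
  trivial
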