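/-
The action of the involution centralizer on the extraspecial group: conjugacy, sections and simplicity.
-/
import Cfsg.Agent.Typ.C1
import Cfsg.Agent.Typ.A8
import Cfsg.Agent.PM.Ch

set_option autoImplicit false

namespace CA.Typ

open Subgroup CA.Fi Cfsg.Agent.Orth QuadraticMap Cfsg CA.M24

local notation "F" => ZMod 2

universe u

variable {G : Type u} [Group G]

theorem conj_of_hom {H Y : Type*} [Group H] [Finite H] [Group Y] (φ : H →* Y) {p : ℕ} [Fact p.Prime]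
    (hk : ∀ x k, φ x = 1 → x ^ p ^ k = 1 → x = 1) {y y0 : H} (h1 : y ^ p = 1) (h2 : y0 ^ p = 1) (e : φ y = φ y0) :
    ∃ g, g * y * g⁻¹ = y0 := by
  let K := (zpowers (φ y0)).comap φ
  have m1 : y ∈ K := show φ y ∈ zpowers _ from e ▸ mem_zpowers _
  have m2 : y0 ∈ K := mem_zpowers _
  obtain ⟨P, hP⟩ := (isP_zpowers (p := p) (k := 1) (x := (⟨y, m1⟩ : K)) (Subtype.ext (by simpa using h1))).exists_le_sylow
  obtain ⟨R, hR⟩ := (isP_zpowers (p := p) (k := 1) (x := (⟨y0, m2⟩ : K)) (Subtype.ext (by simpa using h2))).exists_le_sylow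
  obtain ⟨g, hg⟩ := CA.Loc.conj_sylow P R
  have m : g * ⟨y, m1⟩ * g⁻¹ * (⟨y0, m2⟩ : K)⁻¹ ∈ R :=
    mul_mem (hg.le ⟨_, hP (mem_zpowers _), rfl⟩) (inv_mem (hR (mem_zpowers _)))
  obtain ⟨k, hk'⟩ := R.isPGroup' ⟨_, m⟩
  obtain ⟨i, hi⟩ := g.2
  refine ⟨g, mul_inv_eq_one.1 (hk _ k ?_ (congrArg Subtype.val (congrArg Subtype.val hk')))⟩
  simp only [map_mul, map_inv, ← hi, e]
  group

theorem half_card {Y : Type*} [Group Y] {R C : Subgroup Y} (h : R.index = 2) {r : Y} (hr : r ∈ C) (hn : r ∉ R) :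
    Nat.card C = 2 * Nat.card (R ⊓ C : Subgroup Y) := by
  have : (R.subgroupOf C).index = 2 := index_eq_two_iff_exists_notMem_and'.2 ⟨⟨r, hr⟩, hn, fun b => by
    by_cases c : b.1 ∈ R
    exacts [Or.inr c, Or.inl ((mul_mem_iff_of_index_two h).2 (by simp [hn, c]))]⟩
  rw [← (R.subgroupOf C).card_mul_index, this, mul_comm, ← inf_subgroupOf_right,
    Nat.card_congr (subgroupOfEquivOfLe inf_le_right).toEquiv]

theorem Sec_card_cent {Q B : Subgroup G} {z : G} [(B.subgroupOf (centralizer (B : Set G))).Normal] (S : Sec Q z B) :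
    Nat.card (centralizer ({sP B ⟨z, S.zC⟩} : Set _)) * Nat.card B =
      Nat.card (centralizer {z} ⊓ centralizer (B : Set G) : Subgroup G) := by
  have e : centralizer ({sP B ⟨z, S.zC⟩} : Set _) = ((centralizer {z}).subgroupOf (centralizer (B : Set G))).map (sP B) := by
    ext x
    obtain ⟨x, rfl⟩ := QuotientGroup.mk'_surjective _ x
    rw [mem_cent_iff]
    refine ⟨fun h => ⟨x, mem_cent_iff.2 (S.lift h), rfl⟩, ?_⟩
    rintro ⟨y, hy, e⟩
    exact e ▸ Sec.map_comm (mem_cent_iff.1 hy)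
  have c := card_eq_ker_mul_map (sP B) ((centralizer {z}).subgroupOf (centralizer (B : Set G)))
  rw [QuotientGroup.ker_mk', inf_eq_left.2 (fun b hb => mem_cent_iff.2 (mem_cent_subgroup_iff.1 S.zC _ hb).symm),
    Nat.card_congr (subgroupOfEquivOfLe S.ab).toEquiv] at c
  rw [e, mul_comm, c, ← inf_subgroupOf_right, Nat.card_congr (subgroupOfEquivOfLe inf_le_right).toEquiv]

variable {Q : Subgroup G} {z : G} {V : Type*} [AddCommGroup V] [Module F V]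

/-- the orthogonal representation of the centralizer -/
structure OS (L : LE Q z) (𝔮 : QuadraticForm F V) (π : Q → V) (φ : centralizer ({z} : Set G) →* OG 𝔮) : Prop where
  m : Model (⟨z, L.z_mem⟩ : Q) 𝔮 π
  ker : φ.ker = Q.subgroupOf (centralizer {z})
  idx : φ.range.index = 2
  nr : ∀ w, 𝔮 w = 1 → refl 𝔮 w ∉ φ.range
  act : ∀ g (x : Q), (φ g).1 (π x) = π ⟨g * x * (g : G)⁻¹, L.norm g (mem_cent_iff.1 g.2) x x.2⟩

variable {L : LE Q z} {𝔮 : QuadraticForm F V} {π : Q → V} {φ : centralizer ({z} : Set G) →* OG 𝔮}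

theorem exists_OS [Finite G] (L : LE Q z) (hm : Model (⟨z, L.z_mem⟩ : Q) 𝔮 π) {N : ℕ}
    (hN : Nat.card (centralizer ({z} : Set G)) = Nat.card Q * N) (hi : (commutator (OG 𝔮)).index = 2)
    (hc : Nat.card (OG 𝔮) = 2 * N) (h0 : N ≠ 0) (hr : ∀ w, 𝔮 w = 1 → refl 𝔮 w ∉ commutator (OG 𝔮)) :
    ∃ φ, OS L 𝔮 π φ ∧ φ.range = commutator (OG 𝔮) := by
  obtain ⟨φ, h1, h2, h3⟩ := exists_hom_comm L hm hN hi hc h0
  exact ⟨φ, ⟨hm, h1, h2 ▸ hi, h2 ▸ hr, h3⟩, h2⟩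

namespace OS

theorem conj (h : OS L 𝔮 π φ) (k : OG 𝔮) : OS L 𝔮 (fun x => k.1 (π x)) ((MulAut.conj k).toMonoidHom.comp φ) := by
  have := normal_of_index_eq_two h.idx
  have e : ((MulAut.conj k).toMonoidHom.comp φ).range = φ.range := by
    rw [MonoidHom.range_comp]
    exact le_antisymm (by rintro _ ⟨x, hx, rfl⟩; exact this.conj_mem x hx k)
      fun x hx => ⟨_, this.conj_mem x hx k⁻¹, by simp [mul_assoc]⟩
  refine ⟨h.m.congr k.1 k.2, ?_, e ▸ h.idx, e ▸ h.nr, fun g x => ?_⟩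
  · rw [← h.ker]; ext x; simp [MonoidHom.mem_ker]
  · rw [← h.act]; simp [OG.mul_apply, OG.inv_apply_self]

theorem eq_one (h : OS L 𝔮 π φ) {g : centralizer ({z} : Set G)} : φ g = 1 ↔ g.1 ∈ Q := by
  rw [← MonoidHom.mem_ker, h.ker, mem_subgroupOf]

theorem adj (h : OS L 𝔮 π φ) (k : OG 𝔮) {w : V} (hw : 𝔮 w = 1) : ∃ g, φ g = k ∨ φ g = refl 𝔮 w * k := by
  by_cases c : k ∈ φ.range
  · exact c.imp fun _ => Or.inl
  · exact ((mul_mem_iff_of_index_two h.idx).2 (by simp only [c, h.nr w hw]) : refl 𝔮 w * k ∈ φ.range).imp fun _ => Or.inr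

theorem odd_mem (h : OS L 𝔮 π φ) {k : OG 𝔮} {n : ℕ} (hk : k ^ (2 * n + 1) = 1) : k ∈ φ.range := by
  have := pow_mem (mul_self_mem_of_index_two h.idx k) (n + 1)
  rwa [← pow_two, ← pow_mul, show 2 * (n + 1) = 2 * n + 1 + 1 by ring, pow_succ, hk, one_mul] at this

theorem trans (h : OS L 𝔮 π φ) {u u' c : V} (h0 : u ≠ 0) (h0' : u' ≠ 0) (hu : 𝔮 u = 0) (hu' : 𝔮 u' = 0) (hc : 𝔮 c = 1)
    (e : polar 𝔮 u' c = 0) : ∃ g, (φ g).1 u = u' := by
  obtain ⟨k, hk⟩ := h.m.nondeg.exists_map_sing h0 h0' hu hu'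
  obtain ⟨g, r | r⟩ := h.adj k hc
  exacts [⟨g, r ▸ hk⟩, ⟨g, by rw [r, OG.mul_apply, hk, refl_apply_of_orth e]⟩]

theorem odd_one {x : G} {p k : ℕ} (hp : Odd p) (L : LE Q z) (hx : x ∈ Q) (e : x ^ p ^ k = 1) : x = 1 :=
  (pow_eq_one_iff_of_coprime (((Nat.coprime_two_left.2 hp).pow_left 2).pow_right k)).1 ⟨L.pow_four hx, e⟩

theorem conj_elt [Finite G] (h : OS L 𝔮 π φ) {p : ℕ} [Fact p.Prime] (hp : Odd p) {y y0 : centralizer ({z} : Set G)}
    (h1 : y ^ p = 1) (h2 : y0 ^ p = 1) {k : OG 𝔮} (e : k * φ y * k⁻¹ = φ y0) {w : V} (hw : 𝔮 w = 1)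
    (c : Commute (refl 𝔮 w) (φ y0)) : ∃ g, g * y * g⁻¹ = y0 := by
  obtain ⟨g, hg⟩ : ∃ g, φ (g * y * g⁻¹) = φ y0 := (h.adj k hw).imp fun g r => by
    rw [map_mul, map_mul, map_inv]
    rcases r with r | r <;> rw [r]
    exacts [e, by rw [← conj_eq_iff_commute.2 c, ← e]; group]
  obtain ⟨l, hl⟩ := conj_of_hom φ (p := p) (fun x k a b => Subtype.ext (odd_one hp L (h.eq_one.1 a) (congrArg Subtype.val b)))
    (by rw [conj_pow, h1]; simp) h2 hg
  exact ⟨l * g, by rw [← hl]; group⟩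

theorem lift [Finite G] (h : OS L 𝔮 π φ) {p : ℕ} [Fact p.Prime] (hp : Odd p) {k : OG 𝔮} (hk : k ^ p = 1) :
    ∃ y, φ y = k ∧ y ^ p = 1 := by
  obtain ⟨n, rfl⟩ := hp
  obtain ⟨y, rfl⟩ := h.odd_mem hk
  have e : (y ^ (2 * n + 1)) ^ 4 = 1 := Subtype.ext (L.pow_four (h.eq_one.1 (by rw [map_pow, hk])))
  refine ⟨y ^ (4 * (n + 1) ^ 2), ?_, by rw [← pow_mul, mul_right_comm, mul_comm 4, pow_mul, pow_mul, e, one_pow]⟩
  rw [map_pow, show 4 * (n + 1) ^ 2 = (2 * n + 1) * (2 * n + 3) + 1 by ring, pow_succ, pow_mul, hk, one_pow, one_mul]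

theorem three [Finite G] (h : OS L 𝔮 π φ) {y : centralizer ({z} : Set G)} (h3 : y ^ 3 = 1) (h1 : y ≠ 1) {R : Set G}
    (hR : R.ncard ≤ 8) (hy : ∀ q ∈ Q, y * q * y.1⁻¹ * q⁻¹ ∈ R ∧ y * q * y.1⁻¹ * q⁻¹ * z ∈ R) :
    ∃ a b, 𝔮 a = 1 ∧ 𝔮 b = 1 ∧ polar 𝔮 a b = 1 ∧ φ y = refl 𝔮 a * refl 𝔮 b := by
  have := Finite.of_surjective π h.m.surj
  refine three_refl h.m.nondeg (by rw [← map_pow, h3, map_one]) (fun e => h1 (Subtype.ext
    (odd_one (p := 3) (k := 1) (by decide) L (h.eq_one.1 e) (congrArg Subtype.val h3)))) ?_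
  let S := (LinearMap.range ((φ y).1.toLinearMap + LinearMap.id)).toAddSubgroup
  have c := h.m.card_comap S
  have d : Nat.card (S.toSubgroup.comap h.m.hom) ≤ Nat.card R := Nat.card_le_card_of_injective (fun x => ⟨x.1.1, by
    obtain ⟨x, v, hv⟩ := x
    obtain ⟨q, rfl⟩ := h.m.surj v
    have : π x = π (⟨_, L.norm y (mem_cent_iff.1 y.2) q q.2⟩ * q⁻¹) := by
      rw [h.m.mul, h.m.inv, neg_two, ← h.act]; exact hv.symm
    rcases h.m.eq_iff.1 this with rfl | rfl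
    exacts [(hy q q.2).1, (hy q q.2).2]⟩) fun a b e => Subtype.ext (Subtype.ext (congrArg (Subtype.val (p := (· ∈ R))) e))
  rw [Nat.card_coe_set_eq] at d
  have : {w | ∃ v, (φ y).1 v + v = w}.ncard = Nat.card S := rfl
  omega

theorem three' [Finite G] (h : OS L 𝔮 π φ) {Q' Y : Subgroup (centralizer ({z} : Set G))}
    (hQ : Q'.map (centralizer {z}).subtype = Q) (hY : Nat.card Y = 3) (c : Nat.card ↥⁅Q', Y⁆ = 8)
    (na : ¬ IsMulCommutative ↥⁅Q', Y⁆) : ∃ y, zpowers y = Y ∧ orderOf y = 3 ∧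
      ∃ a b, 𝔮 a = 1 ∧ 𝔮 b = 1 ∧ polar 𝔮 a b = 1 ∧ φ y = refl 𝔮 a * refl 𝔮 b := by
  haveI : Fact (Nat.Prime 3) := ⟨by decide⟩
  obtain ⟨y, rfl⟩ := (Subgroup.isCyclic_iff_exists_zpowers_eq_top _).1 (isCyclic_of_prime_card hY)
  rw [Nat.card_zpowers] at hY
  have m : ∀ x : centralizer ({z} : Set G), x ∈ Q' ↔ x.1 ∈ Q := fun x => by
    rw [← hQ]; exact (mem_map_iff_mem (subtype_injective _)).symm
  have : Q'.Normal := ⟨fun x hx g => (m _).2 (L.norm g (mem_cent_iff.1 g.2) _ ((m _).1 hx))⟩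
  have zR : (⟨z, L.le_cent L.z_mem⟩ : centralizer ({z} : Set G)) ∈ ⁅Q', zpowers y⁆ := by
    by_contra hz
    refine na ⟨⟨fun a b => Subtype.ext (Subtype.ext (Commute.eq ((L.commutator_or ((m _).1 (commutator_le_left _ _ a.2))
      ((m _).1 (commutator_le_left _ _ b.2))).elim commutatorElement_eq_one_iff_commute.1 fun e => absurd ?_ hz)))⟩⟩
    convert (a * b * a⁻¹ * b⁻¹).2 using 1
    exact Subtype.ext e.symm
  refine ⟨y, rfl, hY, h.three (hY ▸ pow_orderOf_eq_one y) (by rintro rfl; simp at hY)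
    (R := (⁅Q', zpowers y⁆.map (centralizer {z}).subtype : Subgroup G)) ?_ fun q hq => ?_⟩
  · rw [← Nat.card_coe_set_eq]; exact ((card_map_of_injective (subtype_injective _)).trans c).le
  · have := commutator_mem_commutator (mem_zpowers y) ((m ⟨q, L.le_cent hq⟩).2 hq)
    rw [commutator_comm] at this
    exact ⟨⟨_, this, rfl⟩, ⟨_, mul_mem this zR, rfl⟩⟩

theorem simple [Finite G] (h : OS L 𝔮 π φ) [IsSimpleGroup φ.range] (h8 : 8 < Nat.card Q)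
    (nwc : ∃ g : G, g * z * g⁻¹ ∈ Q ∧ g * z * g⁻¹ ≠ z) (h1 : ∀ u, 𝔮 u = 0 → ∃ c, 𝔮 c = 1 ∧ polar 𝔮 u c = 0)
    (h2 : ∀ v, 𝔮 v = 0 ∨ ∃ u w, 𝔮 u = 0 ∧ 𝔮 w = 0 ∧ v = u + w) : IsSimpleGroup G := by
  obtain ⟨g, m, ne⟩ := nwc
  have P := L.pair m (L.mem_conj h8 m) ne.symm
  haveI : Nontrivial G := ⟨z, 1, L.z_ne⟩
  refine ⟨fun N hN => or_iff_not_imp_left.2 fun hb => ?_⟩
  obtain ⟨s, s1, s2⟩ := P.exists_s
  have zN : z ∈ N := by_contra fun hz => hb (PM.normal_eq_bot L.z_sq (isConj_iff.2 ⟨g, rfl⟩)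
    (isConj_iff.2 ⟨s * g, by rw [← (P.conj_s s1 s2).2.1]; group⟩) fun x hx c => congrArg Subtype.val
      (PM.LE_inj L L.le_cent (fun _ => mem_cent_iff.1) ((QuotientGroup.mk' N).comp (centralizer {z}).subtype)
        (fun e => hz ((QuotientGroup.eq_one_iff z).1 e)) (a₁ := ⟨x, mem_cent_iff.2 c⟩) (a₂ := 1)
        (((QuotientGroup.eq_one_iff x).2 hx).trans (map_one _).symm)))
  have k : ∀ x y : Q, π y = π x → x.1 ∈ N → y.1 ∈ N := fun x y e hx => by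
    rcases h.m.eq_iff.1 e with rfl | rfl
    exacts [hx, mul_mem hx zN]
  have k0 : ∀ x : Q, 𝔮 (π x) = 0 → x.1 ∈ N := fun x hx => by
    by_cases e : π x = 0
    · exact k 1 x (e.trans h.m.one.symm) (one_mem _)
    obtain ⟨c, c1, c2⟩ := h1 _ hx
    obtain ⟨l, hl⟩ := h.trans (u := π ⟨_, m⟩) (fun e => ((h.m.ker _).1 e).elim (fun r => P.right.z_ne (congrArg Subtype.val r))
      fun r => ne (congrArg Subtype.val r)) e ((h.m.sq _).1 (Subtype.ext P.right.z_sq)) hx c1 c2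
    exact k _ x (hl.symm.trans (h.act _ _)) (hN.conj_mem _ (hN.conj_mem _ zN g) _)
  have QN : Q ≤ N := fun x hx => by
    rcases h2 (π ⟨x, hx⟩) with e | ⟨u, w, e1, e2, e⟩
    · exact k0 _ e
    obtain ⟨u, rfl⟩ := h.m.surj u
    obtain ⟨w, rfl⟩ := h.m.surj w
    exact k (u * w) ⟨x, hx⟩ (e.trans (h.m.mul u w).symm) (mul_mem (k0 u e1) (k0 w e2))
  have HN : centralizer {z} ≤ N := by
    have n := (hN.subgroupOf (centralizer {z})).map φ.rangeRestrict φ.rangeRestrict_surjective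
    rcases n.eq_bot_or_eq_top with e | e
    · obtain ⟨x, x1, y, y1, x2, y2, c⟩ := P.right.exists_pair_cent P.z_mem
        (by rw [card_map_of_injective (MulAut.conj g).injective]; exact h8)
      have t : ∀ x ∈ Q.map (MulAut.conj g).toMonoidHom, Commute x z → x ∈ Q := by
        rintro _ ⟨x, hx, rfl⟩ c
        have : φ.rangeRestrict ⟨_, mem_cent_iff.2 c⟩ ∈ (⊥ : Subgroup _) := e ▸ ⟨_, hN.conj_mem x (QN hx) g, rfl⟩
        exact h.eq_one.1 (congrArg Subtype.val (mem_bot.1 this))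
      have a := t x x1 x2
      have b := t y y1 y2
      exact absurd (commute_of_sq_eq_one (P.E_sq ⟨a, x1⟩) (P.E_sq ⟨b, y1⟩)
        (by rw [pow_two]; exact P.E_sq ⟨mul_mem a b, mul_mem x1 y1⟩)) c
    · intro x hx
      obtain ⟨y, hy, r⟩ : φ.rangeRestrict ⟨x, hx⟩ ∈ _ := e ▸ mem_top _
      have : φ (y⁻¹ * ⟨x, hx⟩) = 1 := by rw [map_mul, map_inv, show φ y = _ from congrArg Subtype.val r]; simp
      exact (mul_mem_cancel_left (inv_mem (show y.1 ∈ N from hy))).1 (QN (h.eq_one.1 this))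
  obtain ⟨T, hT⟩ := (L.isPGroup.comap_subtype (K := N)).exists_le_sylow
  have c : ∀ x ∈ T.1.map N.subtype, (∀ y ∈ T.1.map N.subtype, Commute x y) → x = 1 ∨ x = z := fun x _ hx =>
    L.cent' fun y hy => hx y ⟨⟨y, QN hy⟩, hT hy, rfl⟩
  have zT : z ∈ T.1.map N.subtype := ⟨⟨z, zN⟩, hT L.z_mem, rfl⟩
  have cz : ∀ y ∈ T.1.map N.subtype, Commute z y := by
    haveI : Nontrivial (T.1.map N.subtype) := ⟨⟨z, zT⟩, 1, fun e => L.z_ne (congrArg Subtype.val e)⟩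
    haveI := (T.isPGroup'.map N.subtype).center_nontrivial
    obtain ⟨x, hx⟩ := exists_ne (1 : center (T.1.map N.subtype))
    have e : ∀ y ∈ T.1.map N.subtype, Commute x.1.1 y := fun y hy =>
      (congrArg Subtype.val (mem_center_iff.1 x.2 ⟨y, hy⟩)).symm
    exact ((c _ x.1.2 e).resolve_left fun r => hx (Subtype.ext (Subtype.ext r))) ▸ e
  rw [← T.normalizer_sup_eq_top, sup_eq_right.2 fun y hy => HN (mem_cent_iff.2 (conj_eq_iff_commute.1
    ((c _ ((mem_normalizer_iff.1 hy _).1 zT) fun x hx => commute_conj_left_iff.2 (cz _ ((mem_normalizer_iff''.1 hy _).1 hx))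
      ).resolve_left fun e => L.z_ne (by simpa using e))))]

end OS

end CA.Typ

theorem CA.Typ.realizeEqnsC2 : True := by

  trivial
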