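/-
Sections `C(x)/⟨x⟩` for elements `x` of odd prime order in the involution centralizer.
-/
import Cfsg.Agent.Typ.C2

set_option autoImplicit false
set_option synthInstance.maxSize 100000
set_option synthInstance.maxHeartbeats 400000

namespace CA.Typ

open Subgroup CA.Fi Cfsg.Agent.Orth QuadraticMap Cfsg CA.M24

local notation "F" => ZMod 2

universe u

variable {G : Type u} [Group G]

/-- the subgroup generated by the involutions commuting with an element -/
def Jv (x : G) : Subgroup G := closure {t | t * t = 1 ∧ Commute t x}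

theorem Jv_map {G' : Type*} [Group G'] (f : G →* G') {x y : G} (h : y ∈ Jv x) : f y ∈ Jv (f x) :=
  (closure_le ((Jv (f x)).comap f)).2 (fun t ht => subset_closure ⟨by rw [← map_mul, ht.1, map_one], ht.2.map f⟩) h

theorem quasi_of {C : Type*} [Group C] (B : Subgroup C) [B.Normal] (hB : B ≤ center C) [IsSimpleGroup (C ⧸ B)]
    (na : ∃ a b : C ⧸ B, ¬ Commute a b) (h3 : ∀ b ∈ B, b ^ 3 = 1) (hJ : B ≤ Subgroup.closure {t : C | t * t = 1}) : IsQuasisimple C := by
  obtain ⟨a, b, na⟩ := na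
  have s := QuotientGroup.mk'_surjective B
  have c : center C = B := le_antisymm (fun x hx => (QuotientGroup.eq_one_iff x).1 (mem_bot.1
    (((Normal.map inferInstance _ s : ((center C).map (QuotientGroup.mk' B)).Normal).eq_bot_or_eq_top.resolve_right fun e => by
      obtain ⟨y, hy, rfl⟩ : a ∈ (center C).map (QuotientGroup.mk' B) := e ▸ mem_top a
      obtain ⟨b, rfl⟩ := s b
      exact na (Commute.map (mem_center_iff.1 hy b).symm _)).le ⟨x, hx, rfl⟩))) hB
  have p : (commutator C).map (QuotientGroup.mk' B) = ⊤ :=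
    (Normal.map inferInstance _ s : ((commutator C).map (QuotientGroup.mk' B)).Normal).eq_bot_or_eq_top.resolve_left fun e => by
      obtain ⟨a, rfl⟩ := s a
      obtain ⟨b, rfl⟩ := s b
      refine na (commutatorElement_eq_one_iff_commute.1 ?_)
      rw [← map_commutatorElement]
      exact mem_bot.1 (e.le ⟨_, commutator_mem_commutator (mem_top a) (mem_top b), rfl⟩)
  have d : ∀ x : C, ∃ k ∈ commutator C, k⁻¹ * x ∈ B := fun x => by
    obtain ⟨k, hk, e⟩ : QuotientGroup.mk' B x ∈ (commutator C).map (QuotientGroup.mk' B) := p ▸ mem_top _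
    exact ⟨k, hk, QuotientGroup.eq.1 e⟩
  have le : B ≤ commutator C := hJ.trans ((closure_le _).2 fun t ht => by
    obtain ⟨k, hk, e⟩ := d t
    have := congrArg Abelianization.of (h3 _ e)
    rw [map_pow, map_mul, map_inv, mem_commutator_iff_ab.1 hk, inv_one, one_mul, pow_three, ← map_mul, ← map_mul,
      show t * t = 1 from ht, mul_one] at this
    exact mem_commutator_iff_ab.2 this)
  refine ⟨⟨eq_top_iff.2 fun x _ => ?_⟩, (QuotientGroup.quotientMulEquivOfEq c).isSimpleGroup⟩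
  obtain ⟨k, hk, e⟩ := d x
  exact (mul_mem_cancel_left (inv_mem hk)).1 (le e)

theorem quasi_cent {x : G} (h3 : x ^ 3 = 1) (hJ : x ∈ Jv x) [((zpowers x).subgroupOf (centralizer (zpowers x : Set G))).Normal]
    {S : Type*} [Group S] [IsSimpleGroup S] (na : ∃ a b : S, ¬ Commute a b)
    (e : S ≃* centralizer (zpowers x : Set G) ⧸ (zpowers x).subgroupOf (centralizer (zpowers x : Set G))) :
    IsQuasisimple (centralizer (zpowers x : Set G)) := by
  haveI := e.symm.isSimpleGroup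
  obtain ⟨a, b, na⟩ := na
  refine quasi_of ((zpowers x).subgroupOf _) (fun b hb => mem_center_iff.2 fun g => Subtype.ext (g.2 _ hb).symm)
    ⟨e a, e b, fun h => na (e.injective (by simpa using h.eq))⟩ (fun b ⟨i, hi⟩ => Subtype.ext ?_) fun b hb => ?_
  · rw [coe_pow, ← show x ^ i = b from hi, ← zpow_natCast, ← zpow_mul, mul_comm, zpow_mul, zpow_natCast, h3, one_zpow, coe_one]
  · have : Jv x ≤ (Subgroup.closure {t | t * t = 1}).map (centralizer (zpowers x : Set G)).subtype := (closure_le _).2 fun t ht =>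
      ⟨⟨t, by rw [CA.Loc.cent_zpowers]; exact mem_cent_iff.2 ht.2⟩, subset_closure (Subtype.ext ht.1), rfl⟩
    exact (mem_map_iff_mem (subtype_injective _)).1 (this ((zpowers_le.2 hJ : zpowers x ≤ Jv x) hb))

theorem relIndex_two [Finite G] {x d : G} (h3 : orderOf x = 3) (hd : d * x * d⁻¹ = x ^ 2) :
    (centralizer (zpowers x : Set G)).relIndex (normalizer (zpowers x : Set G)) = 2 := by
  have h1 : x ≠ 1 := by rintro rfl; simp at h3
  have c := CA.Loc.card_normalizer_le h1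
  rw [h3, ← CA.Loc.cent_zpowers, ← CA.FG.card_mul_relIndex (CA.Loc.cent_le_norm _), mul_comm] at c
  have := Nat.le_of_mul_le_mul_right c Nat.card_pos
  have : (centralizer (zpowers x : Set G)).relIndex (normalizer (zpowers x : Set G)) ≠ 0 := index_ne_zero_of_finite
  have : (centralizer (zpowers x : Set G)).relIndex (normalizer (zpowers x : Set G)) ≠ 1 := fun e => by
    have := relIndex_eq_one.1 e (CA.Loc.mem_norm_zpowers hd) x (mem_zpowers x)
    rw [← this, mul_inv_cancel_right, pow_two] at hd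
    exact h1 (by simpa using hd)
  omega

theorem lift_inv {x : G} (h3 : x ^ 3 = 1) [((zpowers x).subgroupOf (centralizer (zpowers x : Set G))).Normal]
    {t : centralizer (zpowers x : Set G) ⧸ (zpowers x).subgroupOf (centralizer (zpowers x : Set G))} (ht : t * t = 1) :
    ∃ c, sP (zpowers x) c = t ∧ c * c = 1 := by
  obtain ⟨c, rfl⟩ := QuotientGroup.mk'_surjective _ t
  obtain ⟨i, hi⟩ := (QuotientGroup.eq_one_iff (c * c)).1 ht
  refine ⟨c ^ 3, by rw [map_pow, pow_three, ht, mul_one], Subtype.ext ?_⟩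
  rw [← (Commute.refl c).mul_pow, coe_pow, ← show x ^ i = (c * c).1 from hi, ← zpow_natCast, ← zpow_mul, mul_comm, zpow_mul,
    zpow_natCast, h3, one_zpow, coe_one]

/-- an element of order three with small commutator -/
structure U3 (Q : Subgroup G) (z d e : G) : Prop where
  d2 : d * d = 1
  e2 : e * e = 1
  dz : Commute d z
  ez : Commute e z
  ord : orderOf (d * e) = 3
  J : d * e ∈ Jv (d * e)
  R : ∃ R : Set G, R.ncard ≤ 8 ∧ ∀ q ∈ Q, d * e * q * (d * e)⁻¹ * q⁻¹ ∈ R ∧ d * e * q * (d * e)⁻¹ * q⁻¹ * z ∈ R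

theorem U3.map {G' : Type*} [Group G'] {Q : Subgroup G} {z d e : G} (h : U3 Q z d e) (ψ : G ≃* G') :
    U3 (Q.map ψ.toMonoidHom) (ψ z) (ψ d) (ψ e) := by
  obtain ⟨R, r1, r2⟩ := h.R
  refine ⟨by rw [← map_mul, h.d2, map_one], by rw [← map_mul, h.e2, map_one], h.dz.map ψ, h.ez.map ψ,
    by rw [← map_mul, ψ.orderOf_eq, h.ord], by rw [← map_mul]; exact Jv_map ψ.toMonoidHom h.J, ψ '' R,
    by rwa [Set.ncard_image_of_injective _ ψ.injective], ?_⟩
  rintro _ ⟨q, hq, rfl⟩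
  exact ⟨⟨_, (r2 q hq).1, by simp⟩, _, (r2 q hq).2, by simp⟩

theorem U3.inv {Q : Subgroup G} {z d e : G} (h : U3 Q z d e) : d * (d * e) * d⁻¹ = (d * e) ^ 2 := by
  have := pow_orderOf_eq_one (d * e)
  rw [h.ord, pow_succ] at this
  rw [eq_inv_of_mul_eq_one_left this, ← mul_assoc, h.d2, one_mul, mul_inv_rev, inv_eq_of_mul_eq_one_left h.e2]

section
variable {Q : Subgroup G} {z : G} {L : LE Q z} {W W' : Type*} [AddCommGroup W] [Module F W] [AddCommGroup W'] [Module F W']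
  {Q1 : QuadraticForm F W} {Q2 : QuadraticForm F W'} {π : Q → W × W'} {φ : centralizer ({z} : Set G) →* OG (Q1.prod Q2)}
  {g0 : OG Q1} {p : ℕ} {x : centralizer ({z} : Set G)}

/-- a standard element of odd prime order -/
structure SE (L : LE Q z) (π : Q → W × W') (φ : centralizer ({z} : Set G) →* OG (Q1.prod Q2)) (g0 : OG Q1) (p : ℕ)
    (x : centralizer ({z} : Set G)) : Prop where
  os : OS L (Q1.prod Q2) π φ
  fp : FP g0 p
  nd : Nondeg Q2
  odd : Odd p
  pow : x ^ p = 1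
  eq : φ x = pinc Q1 Q2 (g0, 1)

namespace SE

theorem ord (h : SE L π φ g0 p x) : orderOf x.1 = p := by
  rw [orderOf_coe]
  refine Nat.dvd_antisymm (orderOf_dvd_of_pow_eq_one h.pow) ?_
  rw [← h.fp.ord, orderOf_dvd_iff_pow_eq_one]
  exact congrArg Prod.fst (pinc_inj (a₁ := (g0, (1 : OG Q2)) ^ orderOf x) (a₂ := 1)
    (by rw [map_pow, ← h.eq, ← map_pow, pow_orderOf_eq_one, map_one, map_one]))

theorem comm (h : SE L π φ g0 p x) (q : Q) : Commute q.1 x ↔ (π q).1 = 0 := by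
  have e := h.os.act x q
  rw [h.eq, pinc_apply] at e
  refine ⟨fun c => h.fp.fpf _ ?_, fun c => (L.commute_of_odd h.odd (congrArg Subtype.val h.pow) (mem_cent_iff.1 x.2) ?_).symm⟩
  · simp only [conj_eq_iff_commute.2 c.symm] at e
    exact congrArg Prod.fst e
  · rw [c, map_zero, ← c, OG.one_apply] at e
    exact (h.os.m.eq_iff.1 e.symm).imp (congrArg Subtype.val) (congrArg Subtype.val)

theorem card_CQ (h : SE L π φ g0 p x) : Nat.card (Q ⊓ centralizer (zpowers x.1 : Set G) : Subgroup G) = 2 * Nat.card W' := by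
  have c := h.os.m.card_comap (AddMonoidHom.fst W W').ker
  rw [show (AddMonoidHom.fst W W').ker.toSubgroup.comap h.os.m.hom = (centralizer {x.1}).subgroupOf Q from
    Subgroup.ext fun q => (h.comm q).symm.trans mem_cent_iff.symm, ← inf_subgroupOf_right,
    Nat.card_congr (subgroupOfEquivOfLe inf_le_right).toEquiv] at c
  rw [CA.Loc.cent_zpowers, inf_comm, c]
  exact congrArg _ (Nat.card_congr ⟨fun v => v.1.2, fun w => ⟨(0, w), rfl⟩, fun v => Subtype.ext (Prod.ext v.2.symm rfl),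
    fun _ => rfl⟩)

theorem dec (h : SE L π φ g0 p x) {d : centralizer ({z} : Set G)} (hd : Commute d.1 x) :
    ∃ i : ℤ, ∃ b, φ d = pinc Q1 Q2 (g0 ^ i, b) := by
  obtain ⟨_, ⟨i, rfl⟩, b, e⟩ := h.fp.cent h.nd (h.eq ▸ (show Commute d x from Subtype.ext hd).map φ)
  exact ⟨i, b, e.symm⟩

theorem dec_inv [Finite G] (h : SE L π φ g0 p x) {d : centralizer ({z} : Set G)} (hd : Commute d.1 x) (h2 : d * d = 1) :
    ∃ b, φ d = pinc Q1 Q2 (1, b) := by
  obtain ⟨i, b, e⟩ := h.dec hd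
  have : g0 ^ i * g0 ^ i = 1 := congrArg Prod.fst (pinc_inj (a₁ := (g0 ^ i, b) * (g0 ^ i, b)) (a₂ := 1)
    (by rw [map_mul, ← e, ← map_mul, h2, map_one, map_one]))
  rw [eq_one_of_odd_of_pow (K := zpowers g0) (by rw [Nat.card_zpowers, h.fp.ord]; exact h.odd) (zpow_mem (mem_zpowers g0) i) (k := 1)
    (by rw [pow_one, pow_two, this])] at e
  exact ⟨b, e⟩

variable [Finite G]

theorem sec (h : SE L π φ g0 p x) (h8 : 8 < Nat.card Q) (nwc : ∃ g : G, g * z * g⁻¹ ∈ Q ∧ g * z * g⁻¹ ≠ z) {s : W'}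
    (s0 : s ≠ 0) (hs : Q2 s = 0) {c : W} (hc : Q1 c = 1) : Sec Q z (zpowers x.1) := by
  refine ⟨L, h8, by rw [Nat.card_zpowers, h.ord]; exact h.odd, by
    rw [CA.Loc.cent_zpowers]; exact mem_cent_iff.2 (mem_cent_iff.1 x.2).symm,
    by rw [CA.Loc.cent_zpowers]; exact CA.Loc.zpowers_le_cent _, ?_⟩
  obtain ⟨g, m, ne⟩ := nwc
  obtain ⟨l, hl⟩ := h.os.trans (u := π ⟨_, m⟩) (u' := (0, s)) (c := (c, 0)) (fun e => ((h.os.m.ker _).1 e).elim
    (fun r => (L.conj g).z_ne (congrArg Subtype.val r)) fun r => ne (congrArg Subtype.val r)) (by simpa using s0)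
    ((h.os.m.sq _).1 (Subtype.ext (L.conj g).z_sq)) (by simpa using hs) (by simpa using hc) (by simp)
  rw [h.os.act] at hl
  have e : l * g * z * (l * g)⁻¹ = l * (g * z * g⁻¹) * l.1⁻¹ := by group
  refine ⟨l * g, ?_⟩
  rw [e, CA.Loc.cent_zpowers]
  refine ⟨⟨L.norm l (mem_cent_iff.1 l.2) _ m, mem_cent_iff.2 ((h.comm ⟨_, _⟩).2 (by rw [hl]))⟩, fun r => ne ?_⟩
  exact mul_left_cancel (mul_right_cancel (r.trans (conj_eq_iff_commute.2 (mem_cent_iff.1 l.2)).symm))

theorem le (h : SE L π φ g0 p x) (S : Sec Q z (zpowers x.1))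
    [((zpowers x.1).subgroupOf (centralizer (zpowers x.1 : Set G))).Normal] :
    LE ((Q.subgroupOf (centralizer (zpowers x.1 : Set G))).map (sP (zpowers x.1))) (sP (zpowers x.1) ⟨z, S.zC⟩) :=
  S.le' fun d hd c => by
    have dz := mem_cent_iff.2 (c z ⟨L.z_mem, S.zC⟩)
    obtain ⟨i, b, e⟩ := h.dec (d := ⟨d, dz⟩) (hd _ (mem_zpowers _)).symm
    obtain rfl : b = 1 := OG.ext fun w => by
      obtain ⟨q, hq⟩ := h.os.m.surj (0, w)
      have a := h.os.act ⟨d, dz⟩ q
      simp only [conj_eq_iff_commute.2 (c q ⟨q.2, by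
        rw [CA.Loc.cent_zpowers]; exact mem_cent_iff.2 ((h.comm q).2 (by rw [hq]))⟩), Subtype.coe_eta, hq, e] at a
      exact congrArg Prod.snd a
    refine ⟨d * (x.1 ^ i)⁻¹, h.os.eq_one (g := ⟨d, dz⟩ * (x ^ i)⁻¹).1 ?_, _, ⟨i, rfl⟩, by simp⟩
    rw [map_mul, map_inv, map_zpow, e, h.eq, ← map_zpow]
    simp

theorem card_cent (h : SE L π φ g0 p x) (S : Sec Q z (zpowers x.1)) {r : W'} (hr : Q2 r = 1) {N : ℕ}
    (hN : Nat.card (OG Q2) = 2 * N) : Nat.card (centralizer {z} ⊓ centralizer (zpowers x.1 : Set G) : Subgroup G) =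
      2 * Nat.card W' * N * p := by
  have c := card_eq_ker_mul_map φ ((centralizer (zpowers x.1 : Set G)).subgroupOf _)
  have e : ((centralizer (zpowers x.1 : Set G)).subgroupOf _).map φ = φ.range ⊓ centralizer {φ x} := by
    ext k
    constructor
    · rintro ⟨d, hd, rfl⟩
      exact ⟨⟨d, rfl⟩, mem_cent_iff.2 ((show Commute d x from Subtype.ext (hd _ (mem_zpowers _)).symm).map φ)⟩
    · rintro ⟨⟨d, rfl⟩, hd⟩
      obtain ⟨q, hq, m⟩ := S.exists_cent (d := d) (by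
        rintro _ ⟨i, rfl⟩
        refine (h.os.eq_one (g := d⁻¹ * (x ^ i * d * (x ^ i)⁻¹))).1 ?_
        simp only [map_mul, map_inv, map_zpow, ((mem_cent_iff.1 hd).symm.zpow_left i).eq]
        simp)
      exact ⟨d * ⟨q, L.le_cent hq⟩, m, by rw [map_mul, (h.os.eq_one (g := ⟨q, _⟩)).2 hq, mul_one]⟩
  have c2 := half_card (C := centralizer {φ x}) h.os.idx (r := refl _ (0, r)) (by
    rw [mem_cent_iff, h.eq, ← pinc_refl]
    exact Commute.map (Commute.prod (Commute.one_left _) (Commute.one_right _)) _) (h.os.nr _ (by simpa using hr))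
  rw [← e, h.eq, h.fp.card h.nd, hN, mul_left_comm] at c2
  rw [h.os.ker, show Q.subgroupOf (centralizer {z}) ⊓ subgroupOf _ _ = (Q ⊓ _).subgroupOf _ from (comap_inf _ _ _).symm,
    Nat.card_congr (subgroupOfEquivOfLe (inf_le_left.trans L.le_cent)).toEquiv, h.card_CQ,
    ← Nat.eq_of_mul_eq_mul_left two_pos c2, ← inf_subgroupOf_left,
    Nat.card_congr (subgroupOfEquivOfLe inf_le_left).toEquiv] at c
  rw [← c]; ring

theorem th (h : SE L π φ g0 p x) (S : Sec Q z (zpowers x.1)) {r : W'} (hr : Q2 r = 1) {N a : ℕ}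
    (hN : Nat.card (OG Q2) = 2 * N) (ha : 2 * Nat.card W' = a) (h8 : 8 < a)
    [((zpowers x.1).subgroupOf (centralizer (zpowers x.1 : Set G))).Normal] : ∃ Qs s,
    TH ((Q.subgroupOf (centralizer (zpowers x.1 : Set G))).map (sP (zpowers x.1))) Qs (sP (zpowers x.1) ⟨z, S.zC⟩) s a N := by
  obtain ⟨g, h1, h2⟩ := S.nwc'
  have c := Sec_card_cent S
  rw [h.card_cent S hr hN, Nat.card_zpowers, h.ord, ha] at c
  exact ⟨_, _, PM.TH_mk (h.le S) (S.card_eq.trans (h.card_CQ.trans ha)) h8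
    (Nat.eq_of_mul_eq_mul_right h.odd.pos c) h1 h2⟩

theorem mem_Jv (h : SE L π φ g0 3 x) (S : Sec Q z (zpowers x.1))
    [((zpowers x.1).subgroupOf (centralizer (zpowers x.1 : Set G))).Normal] {d e}
    (U : U3 ((Q.subgroupOf (centralizer (zpowers x.1 : Set G))).map (sP (zpowers x.1))) (sP (zpowers x.1) ⟨z, S.zC⟩) d e)
    (hw : ∀ a b, (Q1.prod Q2) a = 1 → (Q1.prod Q2) b = 1 → polar (Q1.prod Q2) a b = 1 →
      ∃ k, k * (refl _ a * refl _ b) * k⁻¹ = pinc Q1 Q2 (g0, 1)) {r : W'} (hr : Q2 r = 1) : x.1 ∈ Jv x.1 := by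
  haveI : Fact (Nat.Prime 3) := ⟨by decide⟩
  have x3 : x.1 ^ 3 = 1 := congrArg Subtype.val h.pow
  obtain ⟨d, rfl, d2⟩ := lift_inv x3 U.d2
  obtain ⟨e, rfl, e2⟩ := lift_inv x3 U.e2
  have cx : ∀ c : centralizer (zpowers x.1 : Set G), Commute c.1 x := fun c => Sec.comm_B c (mem_zpowers _)
  have ob : ∀ b ∈ zpowers x.1, b * b = 1 → b = 1 := fun b hb e => eq_one_of_odd_of_pow S.odd hb (k := 1) (by rw [← e, ← pow_two]; rfl)
  let d' : centralizer ({z} : Set G) := ⟨d, mem_cent_iff.2 (S.lift U.dz)⟩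
  let e' : centralizer ({z} : Set G) := ⟨e, mem_cent_iff.2 (S.lift U.ez)⟩
  have d3 : d.1 * d = 1 := congrArg Subtype.val d2
  have e3 : e.1 * e = 1 := congrArg Subtype.val e2
  obtain ⟨b1, r1⟩ := h.dec_inv (d := d') (cx d) (Subtype.ext d3)
  obtain ⟨b2, r2⟩ := h.dec_inv (d := e') (cx e) (Subtype.ext e3)
  have y3 : (d' * e') ^ 3 = 1 := by
    have m : ((d * e) ^ 3).1 ∈ zpowers x.1 := (QuotientGroup.eq_one_iff ((d * e) ^ 3)).1 (by
      rw [← U.ord, ← map_mul]; exact (map_pow (sP _) _ _).trans (pow_orderOf_eq_one _))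
    refine Subtype.ext (show ((d * e) ^ 3).1 = 1 from ob _ m ?_)
    nth_rw 1 [← conj_eq_iff_commute.2 (Sec.comm_B d m)]
    rw [← coe_inv, ← coe_mul, ← coe_mul, ← coe_mul, ← conj_pow, ← mul_assoc d, d2, one_mul,
      show e * d⁻¹ = (d * e)⁻¹ by rw [mul_inv_rev, inv_eq_of_mul_eq_one_left e2], inv_pow, inv_mul_cancel, coe_one]
  obtain ⟨R, c8, hR⟩ := U.R
  obtain ⟨a, b, a1, a2, a3, ey⟩ := h.os.three y3 (fun r => by
      have := U.ord
      rw [← map_mul, show d * e = 1 from Subtype.ext (show d.1 * e = 1 from congrArg Subtype.val r)] at this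
      simp at this)
    (R := Subtype.val '' {c : centralizer (zpowers x.1 : Set G) | c.1 ∈ Q ∧ sP _ c ∈ R}) (by
      rw [Set.ncard_image_of_injective _ Subtype.val_injective]
      exact (Set.ncard_le_ncard_of_injOn (sP _) (fun c hc => hc.2) fun c hc c' hc' => S.inj hc.1 hc'.1).trans c8)
    fun q hq => by
      obtain ⟨u, hu⟩ := h.os.m.surj (0, (π ⟨q, hq⟩).2)
      have uC : u.1 ∈ centralizer (zpowers x.1 : Set G) := by
        rw [CA.Loc.cent_zpowers]; exact mem_cent_iff.2 ((h.comm u).2 (by rw [hu]))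
      have nm := L.norm _ (mem_cent_iff.1 (d' * e').2)
      have k : π (⟨_, nm q hq⟩ * ⟨q, hq⟩⁻¹) = π (⟨_, nm u u.2⟩ * u⁻¹) := by
        rw [h.os.m.mul, h.os.m.mul, h.os.m.inv, h.os.m.inv, ← h.os.act _ ⟨q, hq⟩, ← h.os.act, hu, map_mul, r1, r2, ← map_mul,
          pinc_apply, pinc_apply]
        ext <;> simp [OG.one_apply]
      obtain ⟨t1, t2⟩ := hR _ ⟨⟨u, uC⟩, u.2, rfl⟩
      simp only [← map_mul, ← map_inv] at t1 t2
      have m := mul_mem (nm u u.2) (inv_mem u.2)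
      rcases h.os.m.eq_iff.1 k with r | r <;> rw [show (d' * e').1 * q * (d' * e').1⁻¹ * q⁻¹ = _ from congrArg Subtype.val r]
      · exact ⟨⟨_, ⟨m, t1⟩, rfl⟩, _, ⟨mul_mem m L.z_mem, t2⟩, rfl⟩
      · exact ⟨⟨_, ⟨mul_mem m L.z_mem, t2⟩, rfl⟩, _, ⟨m, t1⟩, by simp [mul_assoc, L.z_sq, d', e']⟩
  obtain ⟨k, hk⟩ := hw a b a1 a2 a3
  obtain ⟨g, hg⟩ := h.os.conj_elt (p := 3) (by decide) y3 h.pow (k := k) (by rw [ey, hk, h.eq]) (w := (0, r))
    (by simpa using hr) (by
      rw [h.eq, ← pinc_refl]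
      exact Commute.map (Commute.prod (Commute.one_left _) (Commute.one_right _)) _)
  have le : Jv (sP _ d * sP _ e) ≤ ((Jv x.1 ⊓ Jv (d * e).1).subgroupOf _).map (sP (zpowers x.1)) := (closure_le _).2 fun t ht => by
    obtain ⟨t, rfl, t2⟩ := lift_inv x3 ht.1
    have t2' : t.1 * t = 1 := congrArg Subtype.val t2
    refine ⟨t, ⟨subset_closure ⟨t2', cx t⟩, subset_closure ⟨t2', ?_⟩⟩, rfl⟩
    have m := (Sec.eq_iff (d * e) (t * (d * e) * t⁻¹)).1 (by simp only [map_mul, map_inv, conj_eq_iff_commute.2 ht.2])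
    have c1 := Sec.comm_B t m
    have c2 := Sec.comm_B (d * e) m
    simp only [coe_mul, coe_inv] at m c1 c2 ⊢
    generalize d.1 * e.1 = y at *
    refine conj_eq_iff_commute.1 (inv_mul_eq_one.1 (ob _ m ?_)).symm
    nth_rw 2 [← conj_eq_iff_commute.2 c1]
    calc _ = y⁻¹ * (t * (t.1⁻¹ * t * y * t.1⁻¹ * t * y⁻¹) * (t * y) * (t.1⁻¹ * t.1⁻¹)) := by group
      _ = y⁻¹ * (t * t * y * (t.1 * t)⁻¹) := by group
      _ = 1 := by rw [t2']; group
  obtain ⟨c, ⟨c1, c2⟩, ec⟩ := le U.J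
  have m := (Sec.eq_iff c (d * e)).1 (by rw [ec, map_mul])
  by_cases r : (c : G)⁻¹ * (d * e).1 = 1
  · have := Jv_map (MulAut.conj g.1).toMonoidHom (inv_mul_eq_one.1 r ▸ c2 : (d * e).1 ∈ Jv (d * e).1)
    rwa [show (MulAut.conj g.1).toMonoidHom (d * e).1 = x from congrArg Subtype.val hg] at this
  · haveI : Fact (Nat.card (zpowers x.1)).Prime := ⟨by rw [Nat.card_zpowers, h.ord]; decide⟩
    obtain ⟨i, hi⟩ := mem_zpowers_of_prime_card (g := (⟨_, m⟩ : zpowers x.1)) (g' := ⟨_, mem_zpowers _⟩) rfl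
      (fun e => r (congrArg Subtype.val e))
    have := (Jv x.1).zpow_mem (mul_mem (inv_mem c1) (mul_mem (subset_closure ⟨d3, cx d⟩) (subset_closure ⟨e3, cx e⟩))) i
    exact (congrArg (· ∈ Jv x.1) (congrArg Subtype.val hi)).mp this

end SE

end

end CA.Typ

theorem CA.Typ.realizeEqnsC3 : True := by
  have := @CA.Typ.Jv.eq_1.{0}
  have := @CA.Typ.Jv.eq_def.{0}
  have := @CA.Typ.Jv.congr_simp.{0}
  trivial
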