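/-
The sections of Suzuki type and of Hall–Janko type of a group of Conway type.
-/
import Cfsg.Agent.Typ.C3

set_option autoImplicit false
set_option synthInstance.maxSize 100000
set_option synthInstance.maxHeartbeats 400000

namespace CA.Typ

open Subgroup CA.Fi Cfsg.Agent.Orth QuadraticMap Cfsg CA.M24

local notation "F" => ZMod 2

universe u

section
variable {V V' : Type*} [AddCommGroup V] [Module F V] [AddCommGroup V'] [Module F V']

theorem exists_lin (f : V → V') (g : V' → V) (h : ∀ x y, f (x + y) = f x + f y) (l : ∀ x, g (f x) = x)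
    (r : ∀ x, f (g x) = x) : ∃ φ : V ≃ₗ[F] V', ∀ x, φ x = f x :=
  ⟨LinearEquiv.ofBijective ((AddMonoidHom.mk' f h).toZModLinearMap 2)
    ⟨Function.LeftInverse.injective l, Function.RightInverse.surjective r⟩, fun _ => rfl⟩

theorem FP.of' {Q1 : QuadraticForm F V} {g : OG Q1} {p : ℕ} [Fact p.Prime] {f : V → V} (hf : ∀ x, g.1 x = f x)
    (hp : ∀ v, f^[p] v = v) (fpf : ∀ v, f v = v → v = 0) {e : V} (he : e ≠ 0)
    (h1 : ∀ v, v ≠ 0 → Q1 v = Q1 e → ∃ i : Fin p, v = f^[i.val] e)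
    (h2 : ∀ v, ∃ a b c d : F, v = a • e + b • f e + c • f (f e) + d • f (f (f e))) : FP g p := by
  have k : ∀ i v, (g ^ i).1 v = f^[i] v := fun i => by
    induction i with
    | zero => exact fun _ => rfl
    | succ i ih => exact fun v => by rw [pow_succ, OG.mul_apply, ih, hf]; rfl
  exact FP.of (OG.ext fun v => (k p v).trans (hp v)) (by simpa only [hf] using fpf) he (by simpa only [k] using h1)
    (by simpa only [hf] using h2)

theorem index5 [Finite V] {𝔮 : QuadraticForm F V} (hQ : Nondeg 𝔮) (h5 : 5 ≤ Module.finrank F V) :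
    (commutator (OG 𝔮)).index = 2 := by
  obtain ⟨e, f, h⟩ := hQ.exists_HP_of_finite (by omega)
  exact (index_commutator hQ h5 h (hQ.commutator_eq_EE_of_finite h5)).trans (if_pos rfl)

end

/-- hyperbolic 8-space as a sum `2 + 6` -/
abbrev q8a := am.prod (hadd q4m)
/-- hyperbolic 8-space as a sum `4 + 4` -/
abbrev q8b := q4m.prod q4m

macro "pdec" : tactic => `(tactic| (simp only [polar_prod, QuadraticMap.prod_apply, polar_hadd, hadd_apply, polar_am, am_apply,
  polar_unit, QuadraticMap.zero_apply, refl_apply, OG.mul_apply]; decide +kernel))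

theorem iso8a : IsoQ (hadd q6p) q8a := by
  obtain ⟨φ, h⟩ := exists_lin (V := F × F × F × F × F × F × F × F × Unit) (V' := (F × F) × F × F × F × F × F × F)
    (fun (a, b, c, d, u, v, s, t, _) => ((u + s + t, v + s + t), a, b, c, d, u + v + t, s + t))
    (fun ((x, y), a, b, c, d, s, t) => (a, b, c, d, x + t, y + t, x + y + s + t, x + y + s, ()))
    (fun _ _ => by ext <;> simp only [Prod.fst_add, Prod.snd_add] <;> ring) (by decide +kernel) (by decide +kernel)
  exact ⟨φ, by simp only [h]; pdec⟩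

theorem iso8b : IsoQ (hadd q6p) q8b := by
  obtain ⟨φ, h⟩ := exists_lin (V := F × F × F × F × F × F × F × F × Unit) (V' := (F × F × F × F) × F × F × F × F)
    (fun (a, b, c, d, u, v, s, t, _) => ((a, b, u + s + t, v + s + t), c, d, u + v + t, s + t))
    (fun ((a, b, x, y), c, d, s, t) => (a, b, c, d, x + t, y + t, x + y + s + t, x + y + s, ()))
    (fun _ _ => by ext <;> simp only [Prod.fst_add, Prod.snd_add] <;> ring) (by decide +kernel) (by decide +kernel)
  exact ⟨φ, by simp only [h]; pdec⟩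

theorem fp3 : FP (refl am (1, 0) * refl am (0, 1)) 3 :=
  haveI : Fact (Nat.Prime 3) := ⟨by decide⟩
  FP.of' (f := fun x => (x.2, x.1 + x.2)) (by qdec) (by decide) (by decide) (e := (1, 0)) (by decide) (by qdec) (by decide)

theorem fp5 : ∃ g : OG q4m, FP g 5 := by
  haveI : Fact (Nat.Prime 5) := ⟨by decide⟩
  let f : F × F × F × F → F × F × F × F := fun (x, y, a, b) => (y, x + y + a + b, y + a, a + b)
  obtain ⟨φ, h⟩ := exists_lin f f^[4] (fun _ _ => by ext <;> simp only [f, Prod.fst_add, Prod.snd_add] <;> ring)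
    (by decide +kernel) (by decide +kernel)
  exact ⟨⟨φ, fun v => by rw [h]; revert v; qdec⟩, FP.of' h (by decide +kernel) (by decide +kernel) (e := (1, 0)) (by decide)
    (by qdec) (by decide +kernel)⟩

theorem witt8 (a b) (h1 : q8a a = 1) (h2 : q8a b = 1) (h3 : polar q8a a b = 1) :
    ∃ k, k * (refl _ a * refl _ b) * k⁻¹ = pinc am (hadd q4m) (refl am (1, 0) * refl am (0, 1), 1) := by
  rw [show (refl am (1, 0) * refl am (0, 1), (1 : OG (hadd q4m))) = (refl am (1, 0), 1) * (refl am (0, 1), 1) by simp, map_mul,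
    pinc_refl', pinc_refl']
  exact witt3 (by pdec) (by pdec) (by pdec) (by pdec) (by pdec) h1 h2 h3

theorem witt6 {a b} (h1 : hadd q4m a = 1) (h2 : hadd q4m b = 1) (h3 : polar (hadd q4m) a b = 1) :
    ∃ k : OG (hadd q4m), k * (refl _ a * refl _ b) * k⁻¹ = refl _ (0, 0, 0, 0, 1, 0) * refl _ (0, 0, 0, 0, 0, 1) :=
  witt3 (by qdec) (by qdec) (by qdec) (by qdec) (by qdec) h1 h2 h3

theorem omega4m_A5 : Nonempty (commutator (OG q4m) ≃* alternatingGroup (Fin 5)) := by
  let S : SubMulAction (OG q4m) (F × F × F × F) :=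
    ⟨{v | v ≠ 0 ∧ q4m v = 0}, fun g _ h => ⟨OG.apply_ne_zero g h.1, (OG.map_Q g _).trans h.2⟩⟩
  have c : Nat.card S = 5 := by
    show Nat.card {v : F × F × F × F // v ≠ 0 ∧ q4m v = 0} = 5
    rw [Nat.card_eq_fintype_card, Fintype.card_subtype]
    simp only [hadd_apply, am_apply]; decide +kernel
  have e := Finite.equivFinOfCardEq c
  have inj : Function.Injective (MulAction.toPermHom (OG q4m) S) := (injective_iff_map_eq_one _).2 fun g hg => OG.ext fun v => by
    have k : ∀ v, v ≠ 0 → q4m v = 0 → g.1 v = v := fun v a b => congrArg Subtype.val (Equiv.congr_fun hg ⟨v, a, b⟩)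
    obtain ⟨a, b, c, d, rfl⟩ := (show ∀ v : F × F × F × F, ∃ a b c d : F, v = a • (1, 0, 0, 0) + b • (0, 1, 0, 0) +
      c • (1, 1, 1, 0) + d • (1, 1, 0, 1) by decide +kernel) v
    simp only [map_add, map_smul, OG.one_apply]
    rw [k _ (by decide) (by qdec), k _ (by decide) (by qdec), k _ (by decide) (by qdec), k _ (by decide) (by qdec)]
  have f := MulEquiv.ofBijective (e.permCongrHom.toMonoidHom.comp (MulAction.toPermHom (OG q4m) S))
    ((e.permCongrHom.injective.comp inj).bijective_of_nat_card_le (by rw [card_q4m, Nat.card_perm]; simp; rfl))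
  exact ⟨(Agent.Lin.commutatorCongr f).trans (MulEquiv.subgroupCongr (alternatingGroup.commutator_perm_eq (by simp)))⟩

theorem simple4m : IsSimpleGroup (commutator (OG q4m)) :=
  omega4m_A5.elim fun e => e.isSimpleGroup

variable {G : Type u} [Group G] [Finite G] {Q Qs : Subgroup G} {z s : G}

theorem TH.nwc {a N : ℕ} (h : TH Q Qs z s a N) : ∃ g : G, g * z * g⁻¹ ∈ Q ∧ g * z * g⁻¹ ≠ z := by
  obtain ⟨g, hg, -⟩ := h.conj
  exact ⟨g, hg ▸ h.t_mem, hg ▸ h.ne.symm⟩

theorem TH.os4 (h : TH Q Qs z s 32 60) : ∃ π φ, OS h.left q4m π φ ∧ φ.range = commutator _ := by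
  obtain ⟨π, hm⟩ := h.model4m
  exact ⟨π, exists_OS h.left hm (h.cQ ▸ h.cH) wg4m.index_comm card_q4m (by decide) wg4m.refl_nmem⟩

theorem TH.os6 (h : TH Q Qs z s 128 25920) : ∃ π φ, OS h.left (hadd q4m) π φ ∧ φ.range = commutator _ := by
  obtain ⟨π, hm⟩ := h.model6m
  exact ⟨π, exists_OS h.left hm (h.cQ ▸ h.cH) index6m card_q6m (by decide) (refl_nmem hm.nondeg (by simp))⟩

theorem TH.os8 (h : TH Q Qs z s 512 174182400) {V : Type*} [AddCommGroup V] [Module F V] [Finite V] {𝔮 : QuadraticForm F V}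
    (e : IsoQ (hadd q6p) 𝔮) (h5 : 5 ≤ Module.finrank F V) : ∃ π φ, OS h.left 𝔮 π φ := by
  obtain ⟨π, hm⟩ := h.model8p
  obtain ⟨π, hm⟩ := Model.iso hm e
  obtain ⟨φ, h, -⟩ := exists_OS h.left hm (h.cQ ▸ h.cH) (index5 hm.nondeg h5) (e.card ▸ card_q8p) (by decide)
    (refl_nmem hm.nondeg h5)
  exact ⟨π, φ, h⟩

theorem TH.simple4 (h : TH Q Qs z s 32 60) : IsSimpleGroup G := by
  obtain ⟨π, φ, o, r⟩ := h.os4
  haveI : IsSimpleGroup φ.range := r ▸ simple4m
  exact o.simple (by rw [h.cQ]; decide) h.nwc (by qdec) (by qdec)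

theorem TH.simple6 (h : TH Q Qs z s 128 25920) : IsSimpleGroup G := by
  obtain ⟨π, φ, o, r⟩ := h.os6
  haveI : IsSimpleGroup φ.range := r ▸ simple6m
  exact o.simple (by rw [h.cQ]; decide) h.nwc (by qdec) (by qdec)

theorem TH.setting4m (h : TH Q Qs z s 32 60) :
    ∃ _ : (Q.subgroupOf (centralizer {z})).Normal,
      IsExtraspecialCentralizerSetting z (Q.subgroupOf (centralizer {z})) 2 ∧
      Nonempty (centralizer ({z} : Set G) ⧸ Q.subgroupOf (centralizer {z}) ≃* Omega F (quadFormMinus 1 F 1 1)) := by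
  have := M24.normal_of_LE h.left
  obtain ⟨π, φ, o, r⟩ := h.os4
  obtain ⟨e⟩ := quot_of_hom φ o.ker r
  obtain ⟨e'⟩ := omega4m
  have := simple4m
  have : Finite (OG q4m) := Nat.finite_of_card_ne_zero (by rw [card_q4m]; norm_num)
  exact ⟨_, M24.setting_of_LE h.left (w := 2) h.cQ e (O2_of_simple (by
    rw [card_comm_of_index (n := 60) wg4m.index_comm card_q4m]; decide)) h.nwc, ⟨e.trans e'.symm⟩⟩

theorem TH.se3 (h : TH Q Qs z s 512 174182400) {Q' Y : Subgroup (centralizer ({z} : Set G))}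
    (hQ : Q'.map (centralizer {z}).subtype = Q) (hY : Nat.card Y = 3) (c : Nat.card ↥⁅Q', Y⁆ = 8)
    (na : ¬ IsMulCommutative ↥⁅Q', Y⁆) : ∃ x, zpowers x = Y ∧ ∃ π φ,
      SE h.left (Q2 := hadd q4m) π φ (refl am (1, 0) * refl am (0, 1)) 3 x := by
  obtain ⟨π, φ, o⟩ := h.os8 iso8a (by simp)
  obtain ⟨y, e, o3, a, b, h1, h2, h3, r⟩ := o.three' hQ hY c na
  obtain ⟨k, hk⟩ := witt8 a b h1 h2 h3
  exact ⟨y, e, _, _, o.conj k, fp3, wg4m.nd.hadd, by decide, o3 ▸ pow_orderOf_eq_one y, by rw [← hk, ← r]; rfl⟩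

theorem TH.ex3 (h : TH Q Qs z s 512 174182400) : ∃ x π φ,
    SE h.left (Q2 := hadd q4m) π φ (refl am (1, 0) * refl am (0, 1)) 3 x := by
  haveI : Fact (Nat.Prime 3) := ⟨by decide⟩
  obtain ⟨π, φ, o⟩ := h.os8 iso8a (by simp)
  obtain ⟨y, e, r⟩ := o.lift (p := 3) (by decide) (k := pinc _ _ (refl am (1, 0) * refl am (0, 1), 1))
    (by rw [← map_pow, Prod.pow_mk, ← fp3.ord, pow_orderOf_eq_one, one_pow]; exact map_one _)
  exact ⟨y, π, φ, o, fp3, wg4m.nd.hadd, by decide, r, e⟩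

theorem TH.ex5 (h : TH Q Qs z s 512 174182400) : ∃ x π φ g, SE h.left (Q1 := q4m) (Q2 := q4m) π φ g 5 x := by
  haveI : Fact (Nat.Prime 5) := ⟨by decide⟩
  obtain ⟨π, φ, o⟩ := h.os8 iso8b (by simp)
  obtain ⟨g, hg⟩ := fp5
  obtain ⟨y, e, r⟩ := o.lift (p := 5) (by decide) (k := pinc _ _ (g, 1))
    (by rw [← map_pow, Prod.pow_mk, ← hg.ord, pow_orderOf_eq_one, one_pow]; exact map_one _)
  exact ⟨y, π, φ, g, o, hg, wg4m.nd, by decide, r, e⟩

theorem TH.sec3 (h : TH Q Qs z s 512 174182400) {x π φ}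
    (E : SE h.left (Q2 := hadd q4m) π φ (refl am (1, 0) * refl am (0, 1)) 3 x)
    [((zpowers x.1).subgroupOf (centralizer (zpowers x.1 : Set G))).Normal] : ∃ S : Sec Q z (zpowers x.1), ∃ Qs s,
    TH ((Q.subgroupOf (centralizer (zpowers x.1 : Set G))).map (sP (zpowers x.1))) Qs (sP (zpowers x.1) ⟨z, S.zC⟩) s
      128 25920 := by
  have S := E.sec (by rw [h.cQ]; decide) h.nwc (s := (1, 0)) (by decide) (by qdec) (c := (1, 0)) (by qdec)
  exact ⟨S, E.th S (r := (1, 1, 0)) (by qdec) card_q6m (by simp) (by decide)⟩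

theorem TH.sec5 (h : TH Q Qs z s 512 174182400) {x π φ g} (E : SE h.left (Q1 := q4m) (Q2 := q4m) π φ g 5 x)
    [((zpowers x.1).subgroupOf (centralizer (zpowers x.1 : Set G))).Normal] : ∃ S : Sec Q z (zpowers x.1), ∃ Qs s,
    TH ((Q.subgroupOf (centralizer (zpowers x.1 : Set G))).map (sP (zpowers x.1))) Qs (sP (zpowers x.1) ⟨z, S.zC⟩) s
      32 60 := by
  have S := E.sec (by rw [h.cQ]; decide) h.nwc (s := (1, 0)) (by decide) (by qdec) (c := (1, 1, 0)) (by qdec)
  exact ⟨S, E.th S (r := (1, 1, 0)) (by qdec) card_q4m (by simp) (by decide)⟩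

end CA.Typ

theorem CA.Typ.realizeEqnsC4 : True := by
  have := @CA.Typ.tacticPdec.eq_1
  have := @CA.Typ.tacticPdec.eq_def
  have := @CA.Typ.tacticPdec.congr_simp
  have := @CA.Typ.q8a.eq_1
  have := @CA.Typ.q8a.eq_def
  have := @CA.Typ.q8a.congr_simp
  have := @CA.Typ.q8b.eq_1
  have := @CA.Typ.q8b.eq_def
  have := @CA.Typ.q8b.congr_simp
  trivial
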