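/-
Simple sections of the automorphism group of the Leech lattice.
-/
import Cfsg.Agent.Typ.C4
import Cfsg.Agent.Typ.B1

set_option autoImplicit false

namespace CA.Typ

open Subgroup CA.Fi Cfsg CA.M24

theorem normal_zp {G : Type*} [Group G] (x : G) : ((zpowers x).subgroupOf (centralizer (zpowers x : Set G))).Normal :=
  ⟨fun n hn g => mem_subgroupOf.2 (by rw [coe_mul, coe_mul, coe_inv, ← g.2 n.1 hn, mul_inv_cancel_right]; exact hn)⟩

theorem sec_lift {G : Type*} [Group G] (h2 : ∀ c ∈ center G, c * c = 1) {y : G ⧸ center G} {p : ℕ} (hp : Odd p)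
    (hy : orderOf y = p) [((zpowers y).subgroupOf (centralizer (zpowers y : Set _))).Normal] :
    ∃ A : Subgroup G, Nat.card A = p ∧ ∃ _ : ((A ⊔ center G).subgroupOf (centralizer (A : Set G))).Normal,
      Nonempty (centralizer (zpowers y : Set _) ⧸ (zpowers y).subgroupOf (centralizer (zpowers y : Set _)) ≃*
        centralizer (A : Set G) ⧸ (A ⊔ center G).subgroupOf (centralizer (A : Set G))) := by
  have s := QuotientGroup.mk'_surjective (center G)
  obtain ⟨x, rfl, hx⟩ : ∃ x, QuotientGroup.mk' (center G) x = y ∧ x ^ p = 1 := by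
    obtain ⟨x, rfl⟩ := s y
    obtain ⟨n, rfl⟩ := hp
    have m : x ^ (2 * n + 1) * x ^ (2 * n + 1) = 1 := h2 _ ((QuotientGroup.eq_one_iff _).1
      (show QuotientGroup.mk' _ x ^ _ = 1 from hy ▸ pow_orderOf_eq_one _))
    refine ⟨x ^ (2 * n + 2), by rw [map_pow, pow_succ, ← hy, pow_orderOf_eq_one, one_mul], ?_⟩
    rw [← pow_mul, show (2 * n + 2) * (2 * n + 1) = (2 * n + 1 + (2 * n + 1)) * (n + 1) by ring, pow_mul, pow_add x, m,
      one_pow]
  have m : ∀ c : centralizer (zpowers x : Set G), QuotientGroup.mk' (center G) c ∈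
      centralizer (zpowers (QuotientGroup.mk' (center G) x) : Set _) := fun c => by
    rw [CA.Loc.cent_zpowers]; exact mem_cent_iff.2 (Commute.map (c.2 x (mem_zpowers x)).symm _)
  let f := (sP (zpowers (QuotientGroup.mk' (center G) x))).comp
    (((QuotientGroup.mk' (center G)).comp (centralizer (zpowers x : Set G)).subtype).codRestrict _ m)
  have k : f.ker = (zpowers x ⊔ center G).subgroupOf (centralizer (zpowers x : Set G)) := by
    ext c
    refine (QuotientGroup.eq_one_iff _).trans ?_
    have := comap_map_eq (QuotientGroup.mk' (center G)) (zpowers x)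
    rw [QuotientGroup.ker_mk', MonoidHom.map_zpowers] at this
    rw [← this]
    rfl
  have sf : Function.Surjective f := (QuotientGroup.mk'_surjective _).comp fun c => by
    obtain ⟨c, hc⟩ := c
    obtain ⟨c, rfl⟩ := s c
    refine ⟨⟨c, ?_⟩, rfl⟩
    have e : c * x * c⁻¹ * x⁻¹ ∈ center G := (QuotientGroup.eq_one_iff _).1
      (commutatorElement_eq_one_iff_commute.2 (hc _ (mem_zpowers _)).symm)
    have e2 : (c * x * c⁻¹ * x⁻¹) ^ p = 1 := by
      have := (show Commute (c * x * c⁻¹ * x⁻¹) x from (mem_center_iff.1 e x).symm).mul_pow p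
      rwa [inv_mul_cancel_right, conj_pow, hx, mul_one, mul_inv_cancel, mul_one, eq_comm] at this
    rw [CA.Loc.cent_zpowers, mem_cent_iff]
    exact commutatorElement_eq_one_iff_commute.1 ((pow_eq_one_iff_of_coprime (Nat.coprime_two_left.2 hp)).1
      ⟨by rw [pow_two]; exact h2 _ e, e2⟩)
  have n : ((zpowers x ⊔ center G).subgroupOf (centralizer (zpowers x : Set G))).Normal := k ▸ inferInstance
  exact ⟨zpowers x, by
    rw [Nat.card_zpowers]
    exact Nat.dvd_antisymm (orderOf_dvd_of_pow_eq_one hx) (hy ▸ orderOf_map_dvd _ x), n,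
    ⟨((QuotientGroup.quotientMulEquivOfEq k.symm).trans (QuotientGroup.quotientKerEquivOfSurjective f sf)).symm⟩⟩

theorem center_Co0 : ∀ c ∈ center Co0, c * c = 1 := fun _ h => by
  rcases M24.mem_center_iff.1 h with rfl | rfl
  exacts [mul_one 1, ng_mul_ng]

theorem TH.nonab {G : Type*} [Group G] {Q Qs : Subgroup G} {z s : G} {a N : ℕ} (h : TH Q Qs z s a N) :
    ¬ IsMulCommutative G := fun c => by
  obtain ⟨x, -, y, -, e⟩ := h.left.exists_pair
  exact e (c.is_comm.comm x y)

end CA.Typ
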