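/-
Elements of order five in orthogonal groups over the field of order two.
-/
import Cfsg.Agent.Typ.C5

set_option autoImplicit false

namespace CA.Typ

open Subgroup CA.Fi Cfsg.Agent.Orth QuadraticMap Cfsg

local notation "F" => ZMod 2

variable {W W' : Type*} [AddCommGroup W] [Module F W] [AddCommGroup W'] [Module F W'] {Q1 : QuadraticForm F W}
  {Q2 : QuadraticForm F W'} {g : OG Q1} {p : ℕ}

theorem eq_of_add2 {a b : W} (h : a + b = 0) : a = b := by rw [eq_neg_of_add_eq_zero_left h, neg_two]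

theorem FP.of_zp {g' : OG Q1} (h : FP g p) (e : zpowers g' = zpowers g) : FP g' p := by
  refine ⟨by rw [← Nat.card_zpowers, e, Nat.card_zpowers, h.ord], fun v hv => h.fpf v
    (zpowers_le.2 (show g' ∈ MulAction.stabilizer _ v from hv) (e.ge (mem_zpowers g))), fun k hk => e.ge (h.cen k ?_)⟩
  obtain ⟨i, hi⟩ := e.ge (mem_zpowers g)
  exact hi ▸ hk.zpow_right i

theorem FP.pow [Fact p.Prime] (h : FP g p) {i : ℕ} (hi : g ^ i ≠ 1) : FP (g ^ i) p := by
  haveI : Fact (Nat.card (zpowers g)).Prime := ⟨by rw [Nat.card_zpowers, h.ord]; exact Fact.out⟩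
  refine h.of_zp (le_antisymm (zpowers_le.2 (pow_mem (mem_zpowers g) i)) (zpowers_le.2 ?_))
  obtain ⟨k, hk⟩ := mem_zpowers_of_prime_card (g := (⟨_, pow_mem (mem_zpowers g) i⟩ : zpowers g))
    (g' := ⟨_, mem_zpowers _⟩) rfl (fun e => hi (congrArg Subtype.val e))
  exact ⟨k, congrArg Subtype.val hk⟩

theorem FP.surj [Finite W] (h : FP g p) (v : W) : ∃ u, g.1 u + u = v :=
  Finite.surjective_of_injective (f := fun u => g.1 u + u) (fun a b e => eq_of_add2 (h.fpf _ (eq_of_add2 (by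
    rw [map_add, add_add_add_comm, show g.1 a + a = _ from e, add_self2])))) v

theorem FP.irr (h : FP g 5) (c : Nat.card W = 16) (A : AddSubgroup W) (hA : ∀ v ∈ A, g.1 v ∈ A) {v : W} (hv : v ∈ A)
    (h0 : v ≠ 0) : A = ⊤ := by
  classical
  haveI : Finite W := Nat.finite_of_card_ne_zero (by omega)
  haveI : Fact (Nat.Prime 5) := ⟨by decide⟩
  letI := Fintype.ofFinite A
  let f : Function.End A := fun a => ⟨g.1 a, hA _ a.2⟩
  have m := Equiv.Perm.card_fixedPoints_modEq (f := f) (p := 5) (n := 1) (funext fun a => Subtype.ext (by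
    have := congrArg (fun k : OG Q1 => k.1 a) (h.ord ▸ pow_orderOf_eq_one g : g ^ 5 = 1)
    simp only [pow_succ, pow_zero, one_mul, OG.mul_apply] at this
    exact this))
  rw [(Fintype.card_eq_one_iff (α := Function.fixedPoints f)).2 ⟨⟨0, Subtype.ext (map_zero g.1)⟩, fun a =>
    Subtype.ext (Subtype.ext (h.fpf _ (congrArg Subtype.val a.2)))⟩, ← Nat.card_eq_fintype_card] at m
  have d := A.card_addSubgroup_dvd_card
  have n : Nat.card A ≠ 1 := fun e => h0 (AddSubgroup.mem_bot.1 (AddSubgroup.eq_bot_of_card_eq A e ▸ hv))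
  refine AddSubgroup.eq_top_of_card_eq A ?_
  rw [c] at d ⊢
  have := Nat.le_of_dvd (by decide) d
  revert d m n
  generalize Nat.card A = k at *
  interval_cases k <;> decide

theorem c2_ker [Finite W'] (c : Module.finrank F W' = 4) {b : OG Q2} (b2 : b * b = 1) {y0 : W'} (h : Q2 (b.1 y0 + y0) = 1)
    (nr : b ≠ refl Q2 (b.1 y0 + y0)) (y : W') (hy : b.1 y = y) : ∃ y', b.1 y' + y' = y := by
  have bb : ∀ v, b.1 (b.1 v) = v := fun v => by rw [← OG.mul_apply, b2, OG.one_apply]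
  let f : W' →ₗ[F] W' := b.1.toLinearMap + LinearMap.id
  have le : LinearMap.range f ≤ LinearMap.ker f := by
    rintro _ ⟨v, rfl⟩
    show b.1 (b.1 v + v) + (b.1 v + v) = 0
    rw [map_add, bb, add_comm v, add_self2]
  have u0 : b.1 y0 + y0 ≠ 0 := fun e => by simp [e] at h
  have r := LinearMap.finrank_range_add_finrank_ker f
  have r2 : 2 ≤ Module.finrank F (LinearMap.range f) := by
    by_contra k
    obtain ⟨v, hv⟩ := finrank_le_one_iff.1 (show Module.finrank F (LinearMap.range f) ≤ 1 by omega)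
    have k : ∀ x, b.1 x + x = 0 ∨ b.1 x + x = v := fun x => by
      obtain ⟨a, ha⟩ := hv ⟨_, x, rfl⟩
      have : (a • v : LinearMap.range f).1 = b.1 x + x := congrArg Subtype.val ha
      rw [← this]
      revert a; intro a _ _
      rcases (show ∀ a : F, a = 0 ∨ a = 1 by decide) a with rfl | rfl <;> simp
    refine nr (OG.ext fun x => ?_)
    rw [refl_two h]
    rcases k x with e | e
    · have := eq_of_add2 e
      rw [polar_add_right, ← this, OG.map_polar, this, add_self2, zero_smul, add_zero, this]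
    · rw [← (k y0).resolve_left u0] at e
      have e1 : b.1 x = x + (b.1 y0 + y0) := by rw [← e, add_comm, add_assoc, add_self2, add_zero]
      have := OG.map_Q b x
      rw [e1, Q_add, h, add_assoc, add_eq_left] at this
      rw [e1, ← eq_of_add2 this, one_smul]
  exact (Submodule.eq_of_le_of_finrank_le le (by omega)).ge (show b.1 y + y = 0 by rw [hy, add_self2])

theorem la [Finite W] (hQ : Nondeg (Q1.prod Q2)) (fp : FP g 5) (c : Nat.card W = 16) {b : OG Q2} (b2 : b * b = 1)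
    (hβ : ∀ y, b.1 y = y → ∃ y', b.1 y' + y' = y) {Y : Type*} [Group Y] (hY : IsPGroup 2 Y) (f : Y →* OG (Q1.prod Q2))
    (hτ : ∀ r, Commute (f r) (pinc Q1 Q2 (1, b))) (hX : ∀ r, ∃ r', f r * pinc Q1 Q2 (g, 1) = pinc Q1 Q2 (g, 1) * f r')
    (hd : ∀ r, ∃ r', f r = pinc Q1 Q2 (g, 1) * f r' * (pinc Q1 Q2 (g, 1))⁻¹ * f r'⁻¹ ∨
      f r = pinc Q1 Q2 (g, 1) * f r' * (pinc Q1 Q2 (g, 1))⁻¹ * f r'⁻¹ * pinc Q1 Q2 (1, b))
    {r1 r2 : Y} (e : f r1 * f r2 = f r2 * f r1 * pinc Q1 Q2 (1, b)) (y : W') : Q2 (b.1 y + y) = 0 := by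
  haveI : Fact (Nat.Prime 2) := ⟨by decide⟩
  set τ := pinc Q1 Q2 (1, b) with hτ'
  have t2 : τ * τ = 1 := by rw [hτ', ← map_mul, Prod.mk_mul_mk, b2, mul_one]; exact map_one _
  have tt : ∀ v, τ.1 (τ.1 v) = v := fun v => by rw [← OG.mul_apply, t2, OG.one_apply]
  have cτ : ∀ r v, (f r).1 (τ.1 v) = τ.1 ((f r).1 v) := fun r v => by rw [← OG.mul_apply, (hτ r).eq, OG.mul_apply]
  have W0 : ∀ v, (τ.1 v + v).1 = 0 := fun v => add_self2 _
  have WU : ∀ v, τ.1 (τ.1 v + v) = τ.1 v + v := fun v => by rw [map_add, tt, add_comm]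
  have pτ : ∀ u v, polar (Q1.prod Q2) (τ.1 u + u) v = polar (Q1.prod Q2) u (τ.1 v + v) := fun u v => by
    rw [polar_add_left, polar_add_right, ← OG.map_polar τ (τ.1 u), tt]
  have fW : ∀ r v, (f r).1 (τ.1 v + v) = τ.1 v + v := fun r v => by
    obtain ⟨r', h⟩ := hd r
    have k : ∀ v : W × W', v.1 = 0 → (pinc Q1 Q2 (g, 1)).1 v = v := fun v h => Prod.ext (by
      rw [pinc_apply, h, map_zero]) rfl
    have k2 : (pinc Q1 Q2 (g, 1) * f r' * (pinc Q1 Q2 (g, 1))⁻¹ * f r'⁻¹).1 (τ.1 v + v) = τ.1 v + v := by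
      rw [OG.mul_apply, OG.mul_apply, OG.mul_apply, map_add (f r'⁻¹).1, cτ, ← k _ (W0 _), OG.inv_apply_self, ← cτ,
        ← map_add, ← OG.mul_apply (f r'), ← map_mul, mul_inv_cancel, map_one, OG.one_apply, k _ (W0 _)]
    rcases h with h | h <;> rw [h]
    exacts [k2, by rw [OG.mul_apply, WU, k2]]
  have toU : ∀ r v, τ.1 ((f r).1 v + v) = (f r).1 v + v := fun r v => eq_of_add2 (hQ _ fun w => by
    rw [pτ, polar_add_left, ← fW r w, OG.map_polar, fW, add_self2])
  have UW : ∀ u, τ.1 u = u → u.1 = 0 → ∃ v, τ.1 v + v = u := fun u h h0 => by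
    obtain ⟨y', e⟩ := hβ _ (congrArg Prod.snd h)
    exact ⟨(0, y'), Prod.ext ((W0 _).trans h0.symm) e⟩
  have dU : ∀ r u, τ.1 u = u → ((f r).1 u).1 = ((f r).1 (u.1, 0)).1 := fun r u h => by
    obtain ⟨v, e⟩ := UW (0, u.2) (Prod.ext rfl (congrArg Prod.snd h :)) rfl
    conv_lhs => rw [show u = (u.1, 0) + (0, u.2) by simp, map_add, ← e, fW, e]
    simp
  have U1 : ∀ v : W, τ.1 (v, 0) = (v, 0) := fun v => Prod.ext rfl (map_zero b.1)
  letI : MulAction Y W :=
    { smul := fun r v => ((f r).1 (v, 0)).1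
      one_smul := fun v => show ((f 1).1 (v, 0)).1 = v by rw [map_one]; rfl
      mul_smul := fun r r' v => show ((f (r * r')).1 (v, 0)).1 = ((f r).1 (((f r').1 (v, 0)).1, 0)).1 by
        rw [map_mul, OG.mul_apply, dU r _ (by rw [← cτ, U1])] }
  obtain ⟨v, hv, v0⟩ := hY.exists_fixed_point_of_prime_dvd_card_of_fixed_point W (a := 0) (by rw [c]; decide)
    fun r => show ((f r).1 0).1 = 0 by rw [map_zero]; rfl
  have tr := fp.irr c
    { carrier := {v | ∀ r, ((f r).1 (v, 0)).1 = v}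
      zero_mem' := fun r => show ((f r).1 0).1 = 0 by rw [map_zero]; rfl
      add_mem' := fun {a b} ha hb r => by
        rw [show ((a + b, 0) : W × W') = (a, 0) + (b, 0) by simp, map_add, Prod.fst_add, ha, hb]
      neg_mem' := fun {a} ha => by rwa [neg_two] }
    (fun v hv r => by
      obtain ⟨r', h⟩ := hX r
      have := congrArg (fun k : OG (Q1.prod Q2) => (k.1 (v, 0)).1) h
      simpa only [OG.mul_apply, pinc_apply, map_zero, hv r'] using this) hv v0.symm
  have toW : ∀ r u, τ.1 u = u → ∃ v, τ.1 v + v = (f r).1 u + u := fun r u h => UW _ (toU r u) (by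
    rw [Prod.fst_add, dU r u h, tr.ge (AddSubgroup.mem_top u.1) r, add_self2])
  have sg : ∀ r u, τ.1 u = u → (Q1.prod Q2) ((f r).1 u + u) = 0 := fun r u h => by
    obtain ⟨v, e⟩ := toW r u h
    have := OG.map_Q (f r) u
    rw [show (f r).1 u = u + ((f r).1 u + u) by rw [add_comm u, add_assoc, add_self2, add_zero], Q_add, ← e, ← pτ, h,
      add_self2, polar_zero_left, add_zero, add_eq_left] at this
    rwa [← e]
  have k := OG.map_Q (f r2 * f r1) (τ.1 (0, y) + (0, y))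
  obtain ⟨v, e1⟩ := toW r1 _ (toU r2 (0, y))
  rw [map_add, ← OG.mul_apply, ← e, OG.mul_apply, OG.mul_apply, show (f r1).1 ((f r2).1 (0, y)) + (f r2).1 ((f r1).1 (0, y)) =
    ((f r1).1 ((f r2).1 (0, y) + (0, y)) + ((f r2).1 (0, y) + (0, y))) +
      ((f r2).1 ((f r1).1 (0, y) + (0, y)) + ((f r1).1 (0, y) + (0, y))) by
        simp only [map_add]
        generalize (f r1).1 (0, y) = c1, (f r2).1 (0, y) = c2
        rw [← add_zero (_ + (f r2).1 c1), ← add_self2 (c1 + c2 + (0, y))]; abel,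
    Q_add, sg _ _ (toU _ _), sg _ _ (toU _ _), ← e1, pτ, toU, add_self2, add_self2, polar_zero_right] at k
  simpa [hτ', pinc_apply, OG.one_apply] using k.symm

/-- the interchange of the two summands -/
def swp (Q : QuadraticForm F W) : OG (Q.prod Q) := ⟨LinearEquiv.prodComm F W W, fun v => by simp [add_comm]⟩

theorem swp_conj (a : OG Q1) : swp Q1 * pinc Q1 Q1 (1, a) * (swp Q1)⁻¹ = pinc Q1 Q1 (a, 1) :=
  mul_inv_eq_iff_eq_mul.2 (OG.ext fun _ => rfl)

end CA.Typ

theorem CA.Typ.realizeEqnsD1 : True := by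
  have := @CA.Typ.swp.eq_1.{0}
  have := @CA.Typ.swp.eq_def.{0}
  have := @CA.Typ.swp.congr_simp.{0}
  trivial
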