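/-
Elements of order five in a group of Conway type.
-/
import Cfsg.Agent.Typ.D1

set_option autoImplicit false
set_option synthInstance.maxSize 100000
set_option synthInstance.maxHeartbeats 400000

namespace CA.Typ

open Subgroup CA.Fi Cfsg.Agent.Orth QuadraticMap Cfsg CA.M24

local notation "F" => ZMod 2

universe u

variable {G : Type u} [Group G]

/-- the fixed part -/
abbrev Qf (Q : Subgroup G) (x : G) : Subgroup G := Q ⊓ centralizer {x}
/-- the moved part -/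
abbrev Qm (Q : Subgroup G) (x : G) : Subgroup G := Q ⊓ centralizer (Qf Q x : Set G)

theorem comm_sub {Q : Subgroup G} {a b : Q} : Commute a b ↔ Commute a.1 b.1 :=
  ⟨fun h => congrArg Subtype.val h, fun h => Subtype.ext h⟩

variable {Q : Subgroup G} {z : G} {L : LE Q z}

theorem Qf_conj (L : LE Q z) {x d q : G} (h1 : Commute d z) (h2 : Commute d x) (hq : q ∈ Qf Q x) : d * q * d⁻¹ ∈ Qf Q x :=
  ⟨L.norm d h1 q hq.1, mem_cent_iff.2 ((h2.mul_left (mem_cent_iff.1 hq.2)).mul_left h2.inv_left)⟩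

theorem Qm_conj (L : LE Q z) {x d q : G} (h1 : Commute d z) (h2 : ∀ u ∈ Qf Q x, d⁻¹ * u * d ∈ Qf Q x) (hq : q ∈ Qm Q x) :
    d * q * d⁻¹ ∈ Qm Q x :=
  ⟨L.norm d h1 q hq.1, mem_cent_subgroup_iff.2 fun u hu => commute_conj_left_iff.2 (mem_cent_subgroup_iff.1 hq.2 _ (h2 u hu))⟩

theorem Qm_conj' (L : LE Q z) {x d q : G} (h1 : Commute d z) (h2 : Commute d x) (hq : q ∈ Qm Q x) : d * q * d⁻¹ ∈ Qm Q x :=
  Qm_conj L h1 (fun u hu => by simpa using Qf_conj L h1.inv_left h2.inv_left hu) hq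

section
variable {W W' : Type*} [AddCommGroup W] [Module F W] [AddCommGroup W'] [Module F W']
  {Q1 : QuadraticForm F W} {Q2 : QuadraticForm F W'} {π : Q → W × W'} {φ : centralizer ({z} : Set G) →* OG (Q1.prod Q2)}
  {g0 : OG Q1} {p : ℕ} {x : centralizer ({z} : Set G)}

namespace SE

variable (h : SE L π φ g0 p x)
include h

theorem xz : Commute x.1 z := mem_cent_iff.1 x.2

theorem memf (q : Q) : q.1 ∈ Qf Q x ↔ (π q).1 = 0 := by rw [mem_inf, mem_cent_iff, h.comm, and_iff_right q.2]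

theorem zf : z ∈ Qf Q x := ⟨L.z_mem, mem_cent_iff.2 h.xz.symm⟩

theorem memm (q : Q) : q.1 ∈ Qm Q x ↔ (π q).2 = 0 := by
  rw [mem_inf, and_iff_right q.2, mem_cent_subgroup_iff]
  refine ⟨fun c => h.nd _ fun w => ?_, fun c u hu => comm_sub.1 ((h.os.m.commute_iff (y := ⟨u, hu.1⟩)).2 ?_)⟩
  · obtain ⟨u, hu⟩ := h.os.m.surj (0, w)
    simpa [hu] using h.os.m.commute_iff.1 (comm_sub.2 (c u ((h.memf u).2 (by rw [hu]))))
  · simp [c, (h.memf ⟨u, hu.1⟩).1 hu]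

theorem dia [Finite W] {q : G} (hq : q ∈ Qm Q x) :
    ∃ r ∈ Qm Q x, q = x * r * x.1⁻¹ * r⁻¹ ∨ q = x * r * x.1⁻¹ * r⁻¹ * z := by
  obtain ⟨v, hv⟩ := h.fp.surj (π ⟨q, hq.1⟩).1
  obtain ⟨r, hr⟩ := h.os.m.surj (v, 0)
  have : π ⟨q, hq.1⟩ = π (⟨_, L.norm x h.xz r r.2⟩ * r⁻¹) := by
    rw [h.os.m.mul, h.os.m.inv, neg_two, ← h.os.act, h.eq, hr, pinc_apply]
    exact Prod.ext hv.symm (by simpa using (h.memm _).1 hq)
  exact ⟨r, (h.memm r).2 (by rw [hr]), (h.os.m.eq_iff.1 this).imp (congrArg Subtype.val) (congrArg Subtype.val)⟩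

theorem dec_cop {d : centralizer ({z} : Set G)} (hd : Commute d.1 x) {n : ℕ} (hn : d ^ n = 1) (co : n.Coprime p) :
    ∃ b, φ d = pinc Q1 Q2 (1, b) := by
  obtain ⟨i, b, e⟩ := h.dec hd
  have : (g0 ^ i) ^ n = 1 := congrArg Prod.fst (pinc_inj (a₁ := (g0 ^ i, b) ^ n) (a₂ := 1)
    (by rw [map_pow, ← e, ← map_pow, hn, map_one, map_one]))
  rw [(pow_eq_one_iff_of_coprime co).1 ⟨this, by
    rw [← h.fp.ord, ← zpow_natCast, ← zpow_mul, mul_comm, zpow_mul, zpow_natCast, pow_orderOf_eq_one, one_zpow]⟩] at e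
  exact ⟨b, e⟩

theorem cent_m [Finite W] {d : G} (dz : Commute d z) (hd : Commute d x) {n : ℕ} (hn : d ^ n = 1) (co : n.Coprime p) {q : G}
    (hq : q ∈ Qm Q x) : Commute d q := by
  obtain ⟨b, e⟩ := h.dec_cop (d := ⟨d, mem_cent_iff.2 dz⟩) hd (Subtype.ext hn) co
  obtain ⟨r, hr, k⟩ := h.dia hq
  have a := h.os.act ⟨d, mem_cent_iff.2 dz⟩ ⟨r, hr.1⟩
  rw [e, pinc_apply, (h.memm ⟨r, hr.1⟩).1 hr, map_zero, ← (h.memm ⟨r, hr.1⟩).1 hr, OG.one_apply] at a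
  have c : Commute d (x * r * x.1⁻¹ * r⁻¹) := conj_eq_iff_commute.1 (by
    rw [show d * (x * r * x.1⁻¹ * r⁻¹) * d⁻¹ = d * x * d⁻¹ * (d * r * d⁻¹) * (d * x * d⁻¹)⁻¹ * (d * r * d⁻¹)⁻¹ by group,
      conj_eq_iff_commute.2 hd]
    rcases h.os.m.eq_iff.1 a.symm with t | t <;> rw [show d * r * d⁻¹ = _ from congrArg Subtype.val t]
    show x * (r * z) * x.1⁻¹ * (r * z)⁻¹ = _
    rw [mul_assoc _ (r * z), mul_assoc r, ← h.xz.inv_left.eq]
    group)
  rcases k with rfl | rfl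
  exacts [c, c.mul_right dz]

theorem star (wi : ∀ u v, Q1 u = 0 → Q1 v = 0 → polar Q1 u v = 0 → u = 0 ∨ v = 0 ∨ u = v) {J : Subgroup G}
    (hJ : ∀ j ∈ J, x * j * x.1⁻¹ ∈ J) (hz : z ∉ J) {q : G} (h1 : q ∈ J) (h2 : q ∈ Qm Q x) : q = 1 := by
  have a := h.os.act x ⟨q, h2.1⟩
  have m := (h.memm ⟨q, h2.1⟩).1 h2
  have s := (h.os.m.sq ⟨q, h2.1⟩).1 (Subtype.ext ((L.sq h2.1).resolve_right fun e => hz (e ▸ mul_mem h1 h1)))
  have c := h.os.m.commute_iff.1 (comm_sub (a := ⟨q, h2.1⟩) (b := ⟨_, L.norm x h.xz q h2.1⟩).2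
    (commutatorElement_eq_one_iff_commute.1 ((L.commutator_or h2.1 (L.norm x h.xz q h2.1)).resolve_right fun e =>
      hz (e ▸ mul_mem (mul_mem (mul_mem h1 (hJ q h1)) (inv_mem h1)) (inv_mem (hJ q h1))))))
  rw [← a, h.eq, pinc_apply] at c
  simp only [polar_prod, QuadraticMap.prod_apply, m, map_zero, add_zero, polar_zero_left] at s c
  have k : (π ⟨q, h2.1⟩).1 = 0 := by
    rcases wi _ _ s ((OG.map_Q _ _).trans s) c with e | e | e
    exacts [e, by_contra fun r => OG.apply_ne_zero _ r e, h.fp.fpf _ e.symm]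
  exact ((h.os.m.ker _).1 (Prod.ext k m)).elim (congrArg Subtype.val) fun e =>
    absurd ((show q = z from congrArg Subtype.val e) ▸ h1) hz

theorem dec_m {q : G} (hq : q ∈ Q) : ∃ a ∈ Qm Q x, a⁻¹ * q ∈ Qf Q x := by
  obtain ⟨a, ha⟩ := h.os.m.surj ((π ⟨q, hq⟩).1, 0)
  exact ⟨a, (h.memm a).2 (by rw [ha]), (h.memf (a⁻¹ * ⟨q, hq⟩)).2 (by simp [h.os.m.mul, h.os.m.inv, ha])⟩

theorem comm01 {d k : G} (hd : d ∈ centralizer (Qf Q x : Set G)) (kz : Commute k z) (kx : Commute k x)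
    (km : ∀ q ∈ Qm Q x, Commute k q) {n : ℕ} (hn : k ^ n = 1) (o : Odd n) : Commute d k := by
  have dc := mem_cent_subgroup_iff.1 hd
  have dz := dc z h.zf
  have c := L.cent' (c := d * k * d⁻¹ * k⁻¹) fun q hq => by
    obtain ⟨a, h1, h2⟩ := h.dec_m hq
    rw [← mul_inv_cancel_left a q]
    refine Commute.mul_right ((commute_conj_left_iff.2 (km _ ?_)).mul_left (km a h1).inv_left) ?_
    · simpa using Qm_conj L dz.inv_left (fun u hu => by rwa [inv_inv, conj_eq_iff_commute.2 (dc u hu)]) h1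
    · rw [show d * k * d⁻¹ * k⁻¹ = d * (k * d⁻¹ * k⁻¹) by group]
      exact (dc _ h2).mul_left (commute_conj_left_iff.2 (dc _ (by simpa using Qf_conj L kz.inv_left kx.inv_left h2)).inv_left)
  refine c.elim commutatorElement_eq_one_iff_commute.1 fun e => absurd ?_ L.z_ne
  have := conj_pow (a := d) (b := k) (i := n)
  obtain ⟨m, rfl⟩ := o
  rw [mul_inv_eq_iff_eq_mul.1 e, kz.symm.mul_pow, hn, pow_succ, pow_mul, pow_two, L.z_sq] at this
  simpa using this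

theorem not_conj [Finite W] [Finite W'] (h5 : p = 5) (c16 : Nat.card W = 16) (c4 : Module.finrank F W' = 4) {a1 a2 : W}
    (ha : polar Q1 a1 a2 ≠ 0) {c q : G} (cx : Commute c x) (tz : Commute (c * z * c⁻¹) z) (hq : q ∈ Q)
    (h4 : (c * z * c⁻¹ * q) ^ 4 ≠ 1) : False := by
  subst h5
  have t2 := (L.conj c).z_sq
  have tx : Commute (c * z * c⁻¹) x := (cx.mul_left h.xz.symm).mul_left cx.inv_left
  obtain ⟨b, e⟩ := h.dec_cop (d := ⟨_, mem_cent_iff.2 tz⟩) tx (n := 2) (Subtype.ext ((pow_two _).trans t2)) (by decide)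
  have b2 : b * b = 1 := congrArg Prod.snd (pinc_inj (a₁ := ((1 : OG Q1), b) * (1, b)) (a₂ := 1)
    (by rw [map_mul, ← e, ← map_mul, map_one]; exact (congrArg φ (Subtype.ext t2)).trans (map_one _)))
  have k : Q2 (b.1 (π ⟨q, hq⟩).2 + (π ⟨q, hq⟩).2) = 1 := zmod_two_eq_one fun k => h4 (by
    have := (h.os.m.sq (⟨_, L.norm _ tz q hq⟩ * ⟨q, hq⟩)).2 (by
      rw [h.os.m.mul, ← h.os.act ⟨_, mem_cent_iff.2 tz⟩ ⟨q, hq⟩, e, pinc_apply]
      simpa [OG.one_apply, add_self2] using k)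
    have := congrArg Subtype.val this
    simp only [coe_mul, coe_one, inv_eq_self_of_sq t2] at this
    rw [← this]; simp only [pow_succ, pow_zero, one_mul, mul_assoc])
  have m : ∀ r : Qm Q x, c * r * c⁻¹ ∈ centralizer ({z} : Set G) := fun r => mem_cent_iff.2 (commute_conj_left_iff.2
    (h.cent_m (commute_conj_left_iff.1 tz).symm ((cx.inv_left.mul_left h.xz.symm).mul_left cx) (n := 2)
      (by simpa [pow_two] using (L.conj c⁻¹).z_sq) (by decide) r.2).symm)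
  obtain ⟨f, hf⟩ : ∃ f : Qm Q x →* OG (Q1.prod Q2), ∀ r, f r = φ ⟨_, m r⟩ :=
    ⟨φ.comp (((MulAut.conj c).toMonoidHom.comp (Qm Q x).subtype).codRestrict _ m), fun _ => rfl⟩
  obtain ⟨r1, h1⟩ := h.os.m.surj (a1, 0)
  obtain ⟨r2, h2⟩ := h.os.m.surj (a2, 0)
  have := la h.os.m.nondeg h.fp c16 b2 (c2_ker c4 b2 k fun r => h.os.nr (0, _) (by simpa using k)
      ⟨_, by rw [e, ← pinc_refl, ← r]⟩) (L.isPGroup.to_le inf_le_left) f
    (fun r => by rw [← e, hf]; exact Commute.map (comm_sub.2 (commute_conj_iff.2 (L.z_comm _ r.2.1).symm)) φ)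
    (fun r => ⟨⟨_, Qm_conj' L h.xz.inv_left (Commute.refl _).inv_left r.2⟩, by
      rw [← h.eq, hf, hf, ← map_mul, ← map_mul]
      refine congrArg φ (Subtype.ext ?_)
      show c * r * c⁻¹ * x = x * (c * (x.1⁻¹ * r * x.1⁻¹⁻¹) * c⁻¹)
      rw [mul_assoc _ c⁻¹, cx.inv_left.eq, ← mul_assoc x.1, ← mul_assoc x.1, ← cx.eq]
      group⟩)
    (fun r => by
      obtain ⟨r', m', k⟩ := h.dia r.2
      have e1 : c * (x * r' * x.1⁻¹ * r'⁻¹) * c⁻¹ = x * (c * r' * c⁻¹) * x.1⁻¹ * (c * r'⁻¹ * c⁻¹) := by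
        nth_rw 3 4 [← conj_eq_iff_commute.2 cx]
        group
      refine ⟨⟨r', m'⟩, k.imp (fun k => ?_) fun k => ?_⟩ <;> rw [← h.eq, hf, hf, hf, ← map_inv, ← map_mul, ← map_mul, ← map_mul]
      · exact congrArg φ (Subtype.ext ((congrArg (c * · * c⁻¹) k).trans e1))
      · rw [← e, ← map_mul]
        exact congrArg φ (Subtype.ext ((congrArg (c * · * c⁻¹) k).trans (conj_mul.symm.trans (congrArg (· * _) e1)))))
    (r1 := ⟨r1, (h.memm r1).2 (by rw [h1])⟩) (r2 := ⟨r2, (h.memm r2).2 (by rw [h2])⟩) (by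
      rw [← e, hf, hf, ← map_mul, ← map_mul, ← map_mul]
      refine congrArg φ (Subtype.ext ?_)
      show c * r1 * c⁻¹ * (c * r2 * c⁻¹) = c * r2 * c⁻¹ * (c * r1 * c⁻¹) * (c * z * c⁻¹)
      rw [conj_mul, conj_mul, conj_mul, L.not_commute r1.2 r2.2 fun k => ha (by
        simpa [h1, h2] using h.os.m.commute_iff.1 (comm_sub.2 k))]) (π ⟨q, hq⟩).2
  rw [k] at this
  exact absurd this (by decide)

end SE

end

end CA.Typ

theorem CA.Typ.realizeEqnsD2 : True := by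
  have := @CA.Typ.Qm.eq_1.{0}
  have := @CA.Typ.Qm.eq_def.{0}
  have := @CA.Typ.Qm.congr_simp.{0}
  have := @CA.Typ.Qf.eq_1.{0}
  have := @CA.Typ.Qf.eq_def.{0}
  have := @CA.Typ.Qf.congr_simp.{0}
  trivial
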