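/-
The centralizer of the layer of the centralizer of an element of order five.
-/
import Cfsg.Agent.Typ.D2

set_option autoImplicit false
set_option synthInstance.maxSize 100000
set_option synthInstance.maxHeartbeats 400000

namespace CA.Typ

open Subgroup CA.Fi Cfsg.Agent.Orth QuadraticMap Cfsg CA.M24

local notation "F" => ZMod 2

universe u

variable {G : Type u} [Group G] {Q : Subgroup G} {z : G} {L : LE Q z}

theorem comm_le_two {Y : Type*} [Group Y] {R : Subgroup Y} (h : R.index = 2) : commutator Y ≤ R :=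
  commutator_le.2 fun a _ b _ => by
    rw [commutatorElement_def, mul_mem_iff_of_index_two h, mul_mem_iff_of_index_two h, mul_mem_iff_of_index_two h,
      inv_mem_iff, inv_mem_iff]
    tauto

theorem ncard_pre {E V : Type*} [Group E] [AddCommGroup V] [Module F V] {z : E} {𝔮 : QuadraticForm F V} {π : E → V}
    [Finite V] (h : Model z 𝔮 π) (S : Set V) : (π ⁻¹' S).ncard ≤ 2 * S.ncard := by
  obtain ⟨σ, hσ⟩ := h.surj.hasRightInverse
  refine (Set.ncard_le_ncard (t := σ '' S ∪ (fun v => σ v * z) '' S) fun q hq => ?_).trans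
    ((Set.ncard_union_le _ _).trans ((Nat.add_le_add Set.ncard_image_le Set.ncard_image_le).trans_eq (two_mul _).symm))
  exact (h.eq_iff.1 (hσ (π q)).symm).imp (fun e => ⟨_, hq, e.symm⟩) fun e => ⟨_, hq, e.symm⟩

variable {W : Type*} [AddCommGroup W] [Module F W] [Finite W] {Q1 : QuadraticForm F W} {π : Q → W × W}
  {φ : centralizer ({z} : Set G) →* OG (Q1.prod Q1)} {g0 : OG Q1} {p : ℕ} {x : centralizer ({z} : Set G)} [Finite G]

namespace SE

variable (h : SE L π φ g0 p x)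
include h

theorem card_H1 {r : W} (hr : Q1 r = 1) : Nat.card (centralizer (Qm Q x : Set G)) ≤ Nat.card (centralizer (Qf Q x : Set G)) := by
  obtain ⟨k, hk⟩ := h.os.adj (swp Q1) (w := (r, 0)) (by simpa using hr)
  rw [← CA.Loc.card_map_conj _ k.1⁻¹]
  refine card_le_of_le ?_
  rintro _ ⟨d, hd, rfl⟩
  refine mem_cent_subgroup_iff.2 fun u hu => commute_conj_left_iff.2 (mem_cent_subgroup_iff.1 hd _ ?_)
  rw [inv_inv]
  refine (h.memm ⟨_, L.norm k (mem_cent_iff.1 k.2) u hu.1⟩).2 ?_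
  have := (h.memf ⟨u, hu.1⟩).1 hu
  rw [← h.os.act k ⟨u, hu.1⟩]
  rcases hk with e | e <;> rw [e]
  · exact this
  · rw [OG.mul_apply, refl_apply]
    exact (show _ - _ • (0 : W) = 0 by rw [smul_zero, sub_zero]; exact this)

theorem card_K {s : G} (hs : s ∈ Qf Q x) (s1 : s ≠ 1) (sz : s ≠ z) (s2 : s * s = 1)
    (un : ∀ s a b : W, s ≠ 0 → Q1 s = 0 → Q1 a = Q1 b → polar Q1 a s = 1 →
      (∀ w, polar Q1 w s = 0 → polar Q1 a w = polar Q1 b w) → a = b)
    {K : Subgroup G} (hK : ∀ d ∈ K, ∀ u ∈ Qf Q x, Commute u s → Commute d u) :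
    Nat.card K ≤ 2 * Nat.card W * Nat.card (K ⊓ centralizer (Qf Q x : Set G) : Subgroup G) := by
  have e0 := (h.memf ⟨s, hs.1⟩).1 hs
  have e1 : (π ⟨s, hs.1⟩).2 ≠ 0 := fun e => ((h.os.m.ker _).1 (Prod.ext e0 e)).elim (fun e => s1 (congrArg Subtype.val e))
    fun e => sz (congrArg Subtype.val e)
  have e2 : Q1 (π ⟨s, hs.1⟩).2 = 0 := by simpa [e0] using (h.os.m.sq ⟨s, hs.1⟩).1 (Subtype.ext s2)
  obtain ⟨w, hw⟩ := h.nd.exists_polar_eq e1 1
  obtain ⟨q, hq⟩ := h.os.m.surj (0, w)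
  have qf := (h.memf q).2 (by rw [hq])
  have qs : ¬ Commute q.1 s := fun c => by
    have := h.os.m.commute_iff.1 ((comm_sub (a := q) (b := ⟨s, hs.1⟩)).2 c)
    rw [hq, polar_prod, polar_zero_left, zero_add, polar_comm, hw] at this
    exact absurd this (by decide)
  rw [CA.Loc.card_eq_orbit K q]
  refine Nat.mul_le_mul (le_trans ?_ ((ncard_pre h.os.m {v | (Q1.prod Q1) v = Q1 w ∧
    ∀ y, polar Q1 y (π ⟨s, hs.1⟩).2 = 0 → polar Q1 v.2 y = polar Q1 w y}).trans (Nat.mul_le_mul_left _ ?_)))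
    (card_le_of_le fun d hd => ⟨hd.1, mem_cent_subgroup_iff.2 fun u hu => ?_⟩)
  · rw [← Set.ncard_image_of_injective _ Subtype.val_injective]
    refine Set.ncard_le_ncard ?_
    rintro _ ⟨d, hd, rfl⟩
    have dz := mem_cent_iff.2 (hK d hd z h.zf (L.z_comm s hs.1))
    refine ⟨⟨_, L.norm d (mem_cent_iff.1 dz) q q.2⟩, ?_, rfl⟩
    rw [Set.mem_preimage, ← h.os.act ⟨d, dz⟩, hq]
    refine ⟨by simp [OG.map_Q], fun y hy => ?_⟩
    obtain ⟨u, hu⟩ := h.os.m.surj (0, y)
    have a := h.os.act ⟨d, dz⟩ u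
    simp only [conj_eq_iff_commute.2 (hK d hd u ((h.memf u).2 (by rw [hu])) ((comm_sub (b := ⟨s, hs.1⟩)).1
      (h.os.m.commute_iff.2 (by simpa [hu] using hy)))), Subtype.coe_eta, hu] at a
    have := OG.map_polar (φ ⟨d, dz⟩) (0, w) (0, y)
    rw [a] at this
    simpa using this
  · rw [← Set.ncard_univ]
    refine Set.ncard_le_ncard_of_injOn Prod.fst (fun _ _ => trivial) fun a ha b hb e => Prod.ext e
      (un _ _ _ e1 e2 ?_ (by rw [ha.2 _ (polar_self2 _), polar_comm, hw]) fun y hy => (ha.2 y hy).trans (hb.2 y hy).symm)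
    simpa [show a.1 = b.1 from e] using ha.1.trans hb.1.symm
  · by_cases c : Commute u s
    · exact hK d hd.1 u hu c
    · have := (hK d hd.1 _ (mul_mem hu qf) (L.mul_commute hu.1 q.2 hs.1 c qs)).mul_right (mem_cent_iff.1 hd.2).inv_right
      rwa [mul_inv_cancel_right] at this

theorem cent_L (wi : ∀ u v, Q1 u = 0 → Q1 v = 0 → polar Q1 u v = 0 → u = 0 ∨ v = 0 ∨ u = v) {r : W} (hr : Q1 r = 1)
    (un : ∀ s a b : W, s ≠ 0 → Q1 s = 0 → Q1 a = Q1 b → polar Q1 a s = 1 →
      (∀ w, polar Q1 w s = 0 → polar Q1 a w = polar Q1 b w) → a = b) {N : ℕ} (hN : Nat.card (OG Q1) = 2 * N)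
    (hi : (commutator (OG Q1)).index = 2) (p3 : Nat.Coprime 3 p)
    {A : Subgroup G} (hx : ∀ l ∈ A, Commute l x) (hQ : Qf Q x ≤ A) {c : G} (hc : c ∈ A) (cQ : c * z * c⁻¹ ∈ Q)
    (cz : c * z * c⁻¹ ≠ z) (hA : Nat.card (A ⊓ centralizer {z} : Subgroup G) = 2 * Nat.card W * N)
    (g3 : ∀ K : Subgroup G, (∀ l ∈ A, Commute l z → l ^ 3 = 1 → l ∈ K) → ∀ l ∈ A, Commute l z → l ∈ K)
    (gen : ∀ K : Subgroup G, (∀ l ∈ A, Commute l z → l ∈ K) → (∀ l ∈ A, Commute l (c * z * c⁻¹) → l ∈ K) → A ≤ K) :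
    Nonempty (centralizer (A : Set G) ≃* commutator (OG Q1)) := by
  have a1 : ∀ l ∈ A, Commute l z → l ∈ centralizer (Qm Q x : Set G) := g3 _ fun l hl lz l3 =>
    mem_cent_subgroup_iff.2 fun q => h.cent_m lz (hx l hl) l3 p3
  have a2 : ∀ d ∈ centralizer (Qf Q x : Set G), ∀ l ∈ A, Commute l z → l ∈ centralizer {d} := fun d hd => g3 _
    fun l hl lz l3 => mem_cent_iff.2 (h.comm01 hd lz (hx l hl) (mem_cent_subgroup_iff.1 (a1 l hl lz)) l3 (by decide)).symm
  have a3 : ∀ d ∈ (centralizer (Qf Q x : Set G)).map (MulAut.conj c).toMonoidHom, ∀ l ∈ A, Commute l (c * z * c⁻¹) →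
      l ∈ centralizer {d} := by
    rintro _ ⟨d, hd, rfl⟩ l hl lz
    exact mem_cent_iff.2 (commute_conj_left_iff.2 (mem_cent_iff.1 (a2 d hd _ (mul_mem (mul_mem (inv_mem hc) hl) hc)
      (commute_conj_left_iff.1 lz.symm).symm)).symm).symm
  have zA := hQ h.zf
  have c1 := h.card_K ⟨cQ, mem_cent_iff.2 (hx _ (mul_mem (mul_mem hc zA) (inv_mem hc)))⟩ (L.conj c).z_ne cz (L.conj c).z_sq un
    fun d hd u hu e => (mem_cent_iff.1 (a3 d hd u (hQ hu) e)).symm
  have c2 : N ≤ Nat.card (centralizer (A : Set G)) := by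
    rw [CA.Loc.card_map_conj] at c1
    have := (hA.ge.trans (card_le_of_le fun l hl => a1 l hl.1 (mem_cent_iff.1 hl.2))).trans ((h.card_H1 hr).trans c1)
    exact (Nat.le_of_mul_le_mul_left this (Nat.mul_pos two_pos Nat.card_pos)).trans (card_le_of_le fun d hd =>
      mem_cent_subgroup_iff.2 fun l hl => (mem_cent_iff.1 (gen _ (a2 d hd.2) (a3 d hd.1) hl)).symm)
  have le : centralizer (A : Set G) ≤ centralizer {z} := fun d hd => mem_cent_iff.2 (mem_cent_subgroup_iff.1 hd z zA)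
  let ψ := φ.comp (inclusion le)
  have inj : Function.Injective ψ := (injective_iff_map_eq_one _).2 fun d hd => Subtype.ext (h.star wi
    (J := centralizer (A : Set G)) (fun j hj => mem_cent_subgroup_iff.2 fun l hl => ((hx l hl).symm.mul_left
      (mem_cent_subgroup_iff.1 hj l hl)).mul_left (hx l hl).symm.inv_left)
    (fun e => cz (conj_eq_iff_commute.2 (mem_cent_subgroup_iff.1 e c hc).symm)) d.2
    ⟨(h.os.eq_one (g := inclusion le d)).1 hd, centralizer_le hQ d.2⟩)
  let ι : OG Q1 →* OG (Q1.prod Q1) := (pinc Q1 Q1).comp (MonoidHom.inl _ _)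
  have ii : Function.Injective ι := fun a b e => congrArg Prod.fst (pinc_inj e)
  have c3 := half_card (C := ι.range) h.os.idx (r := refl _ (r, 0)) ⟨_, pinc_refl' r⟩ (h.os.nr _ (by simpa using hr))
  rw [← Nat.card_congr (MonoidHom.ofInjective ii).toEquiv, hN] at c3
  have : Finite (OG Q1) := Finite.of_injective (fun k : OG Q1 => (k.1 : W → W)) fun a b e => OG.ext (congrFun e)
  have : Finite (OG (Q1.prod Q1)) :=
    Finite.of_injective (fun k : OG (Q1.prod Q1) => (k.1 : W × W → W × W)) fun a b e => OG.ext (congrFun e)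
  have e1 : (commutator (OG Q1)).map ι = φ.range ⊓ ι.range := eq_of_le_of_card_ge
    (le_inf ((map_commutator _ _ _).trans_le ((commutator_mono le_top le_top).trans (comm_le_two h.os.idx))) (map_le_range _ _))
    (by rw [card_map_of_injective ii, card_comm_of_index hi hN]; omega)
  have e2 : ψ.range = φ.range ⊓ ι.range := eq_of_le_of_card_ge (by
      rintro _ ⟨d, rfl⟩
      have k : ∀ d : centralizer (A : Set G), ∀ w, ((ψ d).1 (0, w)) = (0, w) := fun d w => by
        obtain ⟨u, hu⟩ := h.os.m.surj (0, w)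
        have a := h.os.act (inclusion le d) u
        simp only [coe_inclusion, conj_eq_iff_commute.2 (mem_cent_subgroup_iff.1 d.2 _ (hQ ((h.memf u).2 (by rw [hu])))),
          Subtype.coe_eta, hu] at a
        exact a
      obtain ⟨⟨a, b⟩, e⟩ := exists_pinc h.nd (k := ψ d) (fun w => by rw [k]) fun w => by rw [← map_inv, k]
      obtain rfl : b = 1 := OG.ext fun w => by simpa [← e, pinc_apply] using k d w
      exact ⟨⟨_, rfl⟩, a, e⟩)
    (by rw [← Nat.card_congr (MonoidHom.ofInjective inj).toEquiv]; omega)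
  exact ⟨(MonoidHom.ofInjective inj).trans ((MulEquiv.subgroupCongr (e2.trans e1.symm)).trans
    (equivMapOfInjective _ _ ii).symm)⟩

end SE

theorem OS.se [Fact p.Prime] (o : OS L (Q1.prod Q1) π φ) (hg : FP g0 p) (nd : Nondeg Q1) (od : Odd p) {n : ℕ}
    (cq : Nat.card (OG (Q1.prod Q1)) = n) (h0 : n ≠ 0) (h2 : n.factorization p = 2) {Q' : Subgroup (centralizer ({z} : Set G))}
    (hQ : Q'.map (centralizer {z}).subtype = Q) {y : centralizer ({z} : Set G)} (hY : orderOf y = p)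
    (c : 2 < Nat.card (Q' ⊓ centralizer (zpowers y : Set (centralizer ({z} : Set G))) : Subgroup _)) :
    ∃ π φ g, SE L (Q1 := Q1) (Q2 := Q1) π φ g p y := by
  have pp : p.Prime := Fact.out
  have y5 : y ^ p = 1 := hY ▸ pow_orderOf_eq_one y
  haveI : Finite (OG (Q1.prod Q1)) := Nat.finite_of_card_ne_zero (by omega)
  obtain ⟨R, hR⟩ := (isP_zpowers (p := p) (k := 1) (x := φ y) (by rw [pow_one, ← map_pow, y5, map_one])).exists_le_sylow
  have o1 : orderOf (pinc Q1 Q1 (g0, 1)) = p := by rw [orderOf_injective _ pinc_inj, Prod.orderOf_mk, hg.ord]; simp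
  have o2 : orderOf (pinc Q1 Q1 (1, g0)) = p := by rw [orderOf_injective _ pinc_inj, Prod.orderOf_mk, hg.ord]; simp
  have cm : Commute (pinc Q1 Q1 (g0, 1)) (pinc Q1 Q1 (1, g0)) :=
    Commute.map (Commute.prod (Commute.one_right _) (Commute.one_left _)) _
  obtain ⟨k, hk⟩ := CA.Loc.conj_of_card (k := 2) pp (by rw [cq, pp.pow_dvd_iff_le_factorization h0, h2]; decide) R _ (by
    rw [R.card_eq_multiplicity, cq, h2]) (CA.Loc.card_sup_zpowers2 o1 o2 pp cm (by
      rintro ⟨i, hi⟩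
      have := congrArg Prod.snd (pinc_inj ((map_zpow _ _ _).trans hi))
      simp only [Prod.pow_snd, one_zpow] at this
      exact pp.one_lt.ne (by simpa [← this] using hg.ord)))
  obtain ⟨i, j, -, -, e⟩ := CA.Loc.mem_sup_zpowers2 o1 o2 pp.pos cm (hk.le ⟨_, hR (mem_zpowers _), rfl⟩)
  rw [← map_pow, ← map_pow, ← map_mul, Prod.pow_mk, Prod.pow_mk, Prod.mk_mul_mk, one_pow, one_pow, mul_one, one_mul] at e
  have o' := o.conj k
  by_cases a : g0 ^ i = 1 <;> by_cases b : g0 ^ j = 1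
  · rw [a, b] at e
    have := OS.odd_one (k := 1) od L ((o'.eq_one (g := y)).1 (e.trans (map_one _)))
      (by rw [pow_one]; exact congrArg Subtype.val y5)
    rw [show y = 1 from Subtype.ext this, orderOf_one] at hY
    exact absurd hY pp.one_lt.ne
  · rw [a] at e
    exact ⟨_, _, _, o'.conj (swp Q1), hg.pow b, nd, od, y5, by rw [← swp_conj, ← e]; rfl⟩
  · rw [b] at e
    exact ⟨_, _, _, o', hg.pow a, nd, od, y5, e⟩
  · have := card_le_of_le (show Q' ⊓ centralizer (zpowers y : Set _) ≤ zpowers ⟨z, L.le_cent L.z_mem⟩ from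
      fun q hq => by
        have m : q.1 ∈ Q := hQ ▸ ⟨q, hq.1, rfl⟩
        have t := o'.act y ⟨q, m⟩
        simp only [conj_eq_iff_commute.2 (comm_sub.1 (hq.2 y (mem_zpowers y))), Subtype.coe_eta] at t
        rw [show ((MulAut.conj k).toMonoidHom.comp φ) y = _ from e, pinc_apply] at t
        rcases (o'.m.ker ⟨q, m⟩).1 (Prod.ext ((hg.pow a).fpf _ (congrArg Prod.fst t)) ((hg.pow b).fpf _ (congrArg Prod.snd t)))
          with r | r
        · rw [show q = 1 from Subtype.ext (congrArg Subtype.val r :)]; exact one_mem _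
        · rw [show q = ⟨z, L.le_cent L.z_mem⟩ from Subtype.ext (congrArg Subtype.val r :)]; exact mem_zpowers _)
    rw [Nat.card_zpowers, ← orderOf_coe, L.orderOf_z] at this
    omega

theorem TH.se5 {Qs : Subgroup G} {s : G} (h : TH Q Qs z s 512 174182400) {Q' Y : Subgroup (centralizer ({z} : Set G))}
    (hQ : Q'.map (centralizer {z}).subtype = Q) (hY : Nat.card Y = 5)
    (c : Nat.card (Q' ⊓ centralizer (Y : Set (centralizer ({z} : Set G))) : Subgroup _) = 32) :
    ∃ x, zpowers x = Y ∧ ∃ π φ g, SE h.left (Q1 := q4m) (Q2 := q4m) π φ g 5 x := by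
  haveI : Fact (Nat.Prime 5) := ⟨by decide⟩
  obtain ⟨π, φ, o⟩ := h.os8 iso8b (by simp)
  obtain ⟨g, hg⟩ := fp5
  obtain ⟨y, rfl⟩ := (Subgroup.isCyclic_iff_exists_zpowers_eq_top _).1 (isCyclic_of_prime_card hY)
  exact ⟨y, rfl, o.se hg wg4m.nd (by decide) (iso8b.card.symm.trans card_q8p) (by decide) (by decide +kernel) hQ
    (by rwa [Nat.card_zpowers] at hY) (by rw [c]; decide)⟩

theorem split_cent {D Y : Type*} [Group D] [Finite D] [Group Y] (f : D →* Y) (sf : Function.Surjective f)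
    (hc : f.ker ≤ center D) {p : ℕ} (hp : ∀ b ∈ f.ker, b ^ p = 1) (o : Odd p) {y y' i : Y} (c : Commute y y')
    (iy : i * y * i⁻¹ = y) (iy' : i * y' * i⁻¹ = y'⁻¹) (co : (zpowers y ⊔ zpowers y').index.Coprime p)
    (pf : commutator Y = ⊤) : ∃ ψ : Y →* D, (∀ u, f (ψ u) = u) ∧ ψ.range = commutator D := by
  obtain ⟨y, rfl⟩ := sf y
  obtain ⟨y', rfl⟩ := sf y'
  obtain ⟨i, rfl⟩ := sf i
  have cc : ∀ b ∈ f.ker, ∀ d, Commute d b := fun b hb d => mem_center_iff.1 (hc hb) d
  have c1 : Commute y y' := by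
    have m : y * y' * y⁻¹ * y'⁻¹ ∈ f.ker := by simp [MonoidHom.mem_ker, c.eq]
    have m1 : y⁻¹ * (i * y * i⁻¹) ∈ f.ker := by simp [MonoidHom.mem_ker, iy]
    have m2 : y' * (i * y' * i⁻¹) ∈ f.ker := by simp [MonoidHom.mem_ker, iy']
    refine commutatorElement_eq_one_iff_commute.1 ((pow_eq_one_iff_of_coprime (Nat.coprime_two_left.2 o)).1 ⟨?_, hp _ m⟩)
    have e := conj_eq_iff_commute.2 (cc _ m i)
    rw [show i * (y * y' * y⁻¹ * y'⁻¹) * i⁻¹ = y * (y⁻¹ * (i * y * i⁻¹)) * (y'⁻¹ * (y' * (i * y' * i⁻¹))) *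
      (y * (y⁻¹ * (i * y * i⁻¹)))⁻¹ * (y'⁻¹ * (y' * (i * y' * i⁻¹)))⁻¹ by group] at e
    generalize y⁻¹ * (i * y * i⁻¹) = a, y' * (i * y' * i⁻¹) = b at e m1 m2
    rw [pow_two, commutatorElement_def]
    nth_rw 2 [← e]
    rw [← conj_eq_iff_commute.2 (cc _ m y'⁻¹)]
    calc _ = y'⁻¹ * y * y' * y⁻¹ * y'⁻¹ * (y' * y) * (a * (y'⁻¹ * b) * a⁻¹) * (y⁻¹ * b⁻¹) * y' := by group
      _ = 1 := by rw [conj_eq_iff_commute.2 (cc _ m1 _).symm, (cc _ m2 _).inv_right.eq]; group
  let P := closure ({y, y'} ∪ (f.ker : Set D))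
  have kP : f.ker ≤ P := fun b hb => subset_closure (Or.inr hb)
  haveI : IsMulCommutative P := isMulCommutative_closure (by
    rintro a (ha | ha) b (hb | hb)
    · rcases ha with rfl | rfl <;> rcases hb with rfl | rfl
      exacts [rfl, c1, c1.symm, rfl]
    exacts [cc b hb a, (cc a ha b).symm, cc b hb a])
  letI : CommGroup P := IsMulCommutative.instCommGroup
  have inj : Function.Injective (f.comp (commutator D).subtype) := (injective_iff_map_eq_one _).2 fun b hb => by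
    have h3 := MonoidHom.transfer_eq_pow (MonoidHom.id P) b.1 fun k g _ => by
      rw [((cc b hb g⁻¹).pow_right k).eq, inv_mul_cancel_right]
    rw [Abelianization.commutator_subset_ker _ b.2] at h3
    refine Subtype.ext ((pow_eq_one_iff_of_coprime (co.coprime_dvd_left ?_)).1 ⟨congrArg Subtype.val h3.symm, hp _ hb⟩)
    rw [← P.index_map_eq sf kP]
    exact index_dvd_of_le (sup_le (zpowers_le.2 ⟨y, subset_closure (by simp), rfl⟩)
      (zpowers_le.2 ⟨y', subset_closure (by simp), rfl⟩))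
  let e := MulEquiv.ofBijective _ ⟨inj, fun u => by
    obtain ⟨d, hd, e⟩ : u ∈ (commutator D).map f := by
      rw [commutator_def, map_commutator, map_top_of_surjective f sf, ← commutator_def, pf]; trivial
    exact ⟨⟨d, hd⟩, e⟩⟩
  exact ⟨(commutator D).subtype.comp e.symm.toMonoidHom, e.apply_symm_apply, by
    rw [MonoidHom.range_comp, MonoidHom.range_eq_top.2 e.symm.surjective, ← MonoidHom.range_eq_map, range_subtype]⟩

theorem layer_eq_comm {D : Type*} [Group D] [IsSimpleGroup (commutator D)] (h : commutator (commutator D) = ⊤) :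
    layer D = commutator D := by
  refine le_antisymm (sSup_le fun K hK => ?_) (le_sSup ⟨Normal.isSubnormal inferInstance, ⟨h⟩, ?_⟩)
  · rw [← range_subtype K, MonoidHom.range_eq_map, ← hK.2.1.commutator_eq_top, map_subtype_commutator]
    exact commutator_mono le_top le_top
  · refine (QuotientGroup.quotientMulEquivOfEq ((inferInstance : (center _).Normal).eq_bot_or_eq_top.resolve_right
      fun e => ?_)).trans QuotientGroup.quotientBot |>.isSimpleGroup
    exact top_ne_bot (h.symm.trans (commutator_eq_bot_iff_le_centralizer.2 fun x _ y _ => mem_center_iff.1 (e.ge (mem_top x)) y))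

end CA.Typ

theorem CA.Typ.realizeEqnsD3 : True := by

  trivial
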