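/-
The normalizer of the elementary abelian subgroup of order 2^11.
-/
import Cfsg.Agent.Typ.B1
import Cfsg.Agent.M24.Stabs
import Cfsg.Agent.M24.Gens
import Cfsg.Agent.Loc.Abs

set_option autoImplicit false
set_option maxRecDepth 100000

namespace CA.Typ

open Subgroup CA.Fi CA.M24 Cfsg Equiv
open scoped Pointwise symmDiff

noncomputable section

local notation "Λ" => leechLattice

universe u

theorem exists_complement {N : Type*} [Group N] [Finite N] (K U B : Subgroup N) [K.Normal]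
    (h2 : ∀ k ∈ K, k * k = 1) (hKU : K ≤ U) (hodd : Odd U.index) (hBU : B ≤ U) (hB : ∀ b ∈ B, b ∈ K → b = 1)
    (hU : ∀ u ∈ U, ∃ b ∈ B, u * b⁻¹ ∈ K) : ∃ C : Subgroup N, K.IsComplement' C := by
  letI : CommGroup K := { (inferInstance : Group K) with
    mul_comm := fun a b => Subtype.ext (by
      have := h2 _ (mul_mem a.2 b.2)
      rw [← inv_eq_iff_mul_eq_one, mul_inv_rev, inv_eq_of_mul_eq_one_right (h2 _ a.2),
        inv_eq_of_mul_eq_one_right (h2 _ b.2)] at this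
      exact this.symm) }
  choose! β hβ hβ' using hU
  have uniq : ∀ u ∈ U, ∀ b ∈ B, u * b⁻¹ ∈ K → β u = b := fun u hu b hb h => by
    have := hB _ (mul_mem hb (inv_mem (hβ u hu))) (by
      have := mul_mem (inv_mem h) (hβ' u hu)
      rwa [mul_inv_rev, inv_inv, mul_assoc, inv_mul_cancel_left] at this)
    exact (mul_inv_eq_one.1 this).symm
  have mem : ∀ (g : N) (q : N ⧸ U), (g • q).out⁻¹ * (g * q.out) ∈ U := fun g q =>
    QuotientGroup.eq.1 (by rw [QuotientGroup.out_eq', ← smul_eq_mul, MulAction.Quotient.mk_smul_out])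
  letI := Fintype.ofFinite (N ⧸ U)
  let d : N → K := fun g => ∏ q : N ⧸ U, MulAut.conjNormal (g • q).out
    (⟨(g • q).out⁻¹ * (g * q.out) * (β ((g • q).out⁻¹ * (g * q.out)))⁻¹, hβ' _ (mem g q)⟩ : K)
  have dmul : ∀ g h, d (g * h) = d g * MulAut.conjNormal g (d h) := fun g h => by
    simp only [d]
    rw [map_prod, ← Equiv.prod_comp (MulAction.toPerm h) (fun q : N ⧸ U => MulAut.conjNormal (g • q).out
      (⟨(g • q).out⁻¹ * (g * q.out) * (β ((g • q).out⁻¹ * (g * q.out)))⁻¹, hβ' _ (mem g q)⟩ : K)),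
      ← Finset.prod_mul_distrib]
    refine Finset.prod_congr rfl fun q _ => Subtype.ext ?_
    have a1 := mem g (h • q)
    have a2 := mem h q
    have e : β (((g * h) • q).out⁻¹ * (g * h * q.out)) =
        β ((g • h • q).out⁻¹ * (g * (h • q).out)) * β ((h • q).out⁻¹ * (h * q.out)) := by
      refine uniq _ (mem _ q) _ (mul_mem (hβ _ a1) (hβ _ a2)) ?_
      have := mul_mem (Normal.conj_mem inferInstance _ (hβ' _ a2) ((g • h • q).out⁻¹ * (g * (h • q).out)))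
        (hβ' _ a1)
      rw [mul_smul]
      convert this using 1
      group
    simp only [coe_mul, MulAut.conjNormal_apply, MulAction.toPerm_apply, e]
    have c := congrArg Subtype.val (mul_comm (⟨_, hβ' _ a1⟩ : K) ⟨_, Normal.conj_mem inferInstance _ (hβ' _ a2)
      ((g • h • q).out⁻¹ * (g * (h • q).out))⟩)
    simp only [coe_mul] at c
    rw [mul_smul]
    have := congrArg (fun x => (g • h • q).out * x * (g • h • q).out⁻¹) c
    refine Eq.trans ?_ (this.symm.trans ?_) <;> group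
  have dK : ∀ k : K, d k = k := fun k => by
    have e : ∀ q : N ⧸ U, (k : N) • q = q := fun q => by
      rw [← q.out_eq', MulAction.Quotient.smul_mk, smul_eq_mul, QuotientGroup.eq, mul_inv_rev]
      exact hKU (Normal.conj_mem' inferInstance _ (inv_mem k.2) _)
    have : d k = ∏ _q : N ⧸ U, k := Finset.prod_congr rfl fun q _ => Subtype.ext (by
      have m : q.out⁻¹ * (k * q.out) ∈ K := mul_assoc q.out⁻¹ _ _ ▸ Normal.conj_mem' inferInstance _ k.2 _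
      simp only [MulAut.conjNormal_apply, e, uniq _ (hKU m) 1 (one_mem _) (by rwa [inv_one, mul_one])]
      group)
    obtain ⟨n, hn⟩ := hodd
    rw [this, Finset.prod_const, Finset.card_univ, ← Nat.card_eq_fintype_card, ← index_eq_card, hn, pow_succ, pow_mul,
      pow_two, show k * k = 1 from Subtype.ext (h2 _ k.2), one_pow, one_mul]
  have d1 : d 1 = 1 := dK 1
  refine ⟨{ carrier := {g | d g = 1}
            mul_mem' := fun {a b} ha hb => by rw [Set.mem_setOf, dmul, ha, hb, map_one, mul_one]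
            one_mem' := d1
            inv_mem' := fun {a} ha => by
              have := dmul a a⁻¹
              rw [mul_inv_cancel, d1, ha, one_mul] at this
              exact (MulEquiv.map_eq_one_iff _).1 this.symm }, isComplement'_of_disjoint_and_mul_eq_univ
    (disjoint_def.2 fun {x} h1 h2 => congrArg Subtype.val ((dK ⟨x, h1⟩).symm.trans h2))
    (Set.eq_univ_of_forall fun g => ⟨d g, (d g).2, (d g)⁻¹ * g, ?_, mul_inv_cancel_left _ _⟩)⟩
  show d _ = 1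
  rw [dmul, dK, MulAut.conjNormal_val, MulAut.conj_apply, mul_inv_cancel_comm, inv_mul_cancel]

theorem exists_oct_sep {p q : Pt} (h : p ≠ q) : ∃ o ∈ octads, p ∈ o ∧ q ∉ o := by
  obtain ⟨g, hg, h1, h2⟩ := exists_two (a := none) (b := pt 4) (by decide) h
  exact ⟨g • OO, smul_mem_octads hg O0_mem, h1 ▸ Finset.smul_mem_smul_finset none_mem_OO,
    h2 ▸ fun e => absurd ((Finset.smul_mem_smul_finset_iff g).1 e) (by decide +kernel)⟩

theorem eq_one_of_oct {π : Perm Pt} (h : ∀ o ∈ octads, π • o = o) : π = 1 := by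
  ext1 p
  by_contra e
  obtain ⟨o, ho, h1, h2⟩ := exists_oct_sep (Ne.symm e)
  exact h2 (h o ho ▸ Finset.smul_mem_smul_finset h1)

theorem mem_Mon_of_norm {g : Co0} (h : ∀ d ∈ Cs, ∃ c ∈ Cs, eps d * g = g * eps c) : g ∈ Mon := by
  obtain ⟨q, hq⟩ : ∃ q, act g (e8 none) q ≠ 0 := by
    by_contra! e
    have := sqNorm_act g (e8 none)
    rw [show act g (e8 none) = 0 from funext e, sqNorm_zero, sqNorm_e8] at this
    exact absurd this (by decide)
  refine mon_of_e8 (p := none) (q := q) fun i hi => ?_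
  obtain ⟨o, ho, h1, h2⟩ := exists_oct_sep hi
  obtain ⟨c, hc, e⟩ := h o (mem_octads.1 ho).1
  have e := congrArg (act · (e8 none)) e
  simp only [act_mul] at e
  rw [act_eps (mem_octads.1 ho).1 (act_mem _ (e8_mem _)), act_eps hc (e8_mem _)] at e
  rcases sgn_e8 c none with r | r <;> rw [r] at e
  · exact zero_of_sgn e h1
  · rw [act_neg _ (e8_mem _)] at e
    exact absurd (zero_of_sgn' e h2) hq

theorem oct_eq_of {π : Perm Pt} (hπ : π ∈ M24) {o o' : Finset Pt} (ho : o ∈ octads) (ho' : o' ∈ octads)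
    (h : π • o = o' ∨ π • o = o'ᶜ) : π • o = o' :=
  h.resolve_right fun e => by
    have := (mem_octads.1 (smul_mem_octads hπ ho)).2
    rw [e, Finset.card_compl, card_Pt, (mem_octads.1 ho').2] at this
    exact absurd this (by decide)

theorem mono_conj_eps {c d : Finset Pt} (hc : c ∈ Cs) (hd : d ∈ Cs) {π : Perm Pt} (hπ : π ∈ M24) :
    eps c * pC π * eps d * (eps c * pC π)⁻¹ = eps (π • d) := by
  rw [mul_inv_eq_iff_eq_mul, mul_assoc, pC_mul_eps hπ hd, ← mul_assoc, ← mul_assoc,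
    Sg_comm ⟨c, hc, rfl⟩ ⟨_, smul_mem_Cs hπ hd, rfl⟩]

theorem M24_le_of {L : Subgroup (Perm Pt)} (h1 : St OO ≤ L) (h2 : sw ∈ L) : M24 ≤ L := by
  have hs : InH M24 (nat_lit 858211620949349785901889362837382731) := inM_of_chk (by decide +kernel)
  refine (le_gen_of_chainLB (gens := gensO ++ [nat_lit 858211620949349785901889362837382731]) 
    [(0, 3, [[1, 2, 2, 1, 1, 1, 1, 0], [2, 2, 0, 2, 1, 0, 1, 0, 2, 0]]), (1, 5, [[0, 0, 0, 0], [1, 0, 1, 1, 1, 0, 0, 0, 1, 1]]), (2, 4, [[0, 0, 1, 0, 1, 0, 1, 0, 0, 1, 0, 1, 1, 0, 0], [1, 1, 1, 1, 0]]), (3, 5, [[0, 1, 1, 0, 1, 1, 0, 0, 0, 1, 0, 0, 0, 1], [0, 0, 1, 1, 0, 1, 0, 0, 0, 1]]), (4, 4, [[0, 0, 0, 1, 1, 0, 1, 1, 1, 0, 0, 1, 1, 1, 1, 1, 1, 0, 0, 0, 1, 0, 1], [1, 0, 1, 1, 0, 1, 0, 0, 0, 0, 1, 0, 0, 0, 0], [1, 0, 1, 1, 0, 0, 1]]), (5, 2, [[2, 1, 0]]), (6, 2, [])]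
    (fun c hc => ?_) (by rw [card_M24]; decide +kernel)).trans (gen_le fun c hc => ?_)
  · rcases List.mem_append.1 hc with hc | hc
    exacts [(gensO_in c hc).mono inf_le_left, List.mem_singleton.1 hc ▸ hs]
  · rcases List.mem_append.1 hc with hc | hc
    exacts [(gensO_in c hc).mono h1, List.mem_singleton.1 hc ▸ hs.code_perm ▸ inH_code.2 h2]

theorem mon_H {c : Finset Pt} (hc : c ∈ Cs) {π : Perm Pt} (hπ : π ∈ St OO) :
    mk1 (eps c * pC π) ∈ centralizer {zb} :=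
  mem_cent_iff.2 (comm_zb.2 ((mono_comm_eps hc OO_Cs hπ.1).2 hπ.2))

theorem eps_H {c : Finset Pt} (hc : c ∈ Cs) : mk1 (eps c) ∈ centralizer {zb} := by
  have := mon_H hc (one_mem _)
  rwa [pC_one, mul_one] at this

theorem mem_P {g : Spor.Co1} (h1 : g * zb * g⁻¹ ∈ closure {zb, sb}) (h2 : g * sb * g⁻¹ ∈ closure {zb, sb}) :
    g ∈ normalizer ((closure ({zb, sb} : Set Spor.Co1) : Subgroup Spor.Co1) : Set Spor.Co1) :=
  Loc.mem_norm_closure (by rintro _ (rfl | rfl); exacts [h1, h2])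

theorem eps_P {c : Finset Pt} (hc : c ∈ Cs) :
    mk1 (eps c) ∈ normalizer ((closure ({zb, sb} : Set Spor.Co1) : Subgroup Spor.Co1) : Set Spor.Co1) := by
  refine mem_P ?_ ?_
  · rw [(mem_cent_iff.1 (eps_H hc)).eq, mul_inv_cancel_right]
    exact subset_closure (Or.inl rfl)
  · rw [sb, ← map_mul, Sg_comm ⟨c, hc, rfl⟩ ⟨_, (mem_octads.1 O1_mem).1, rfl⟩, map_mul, mul_inv_cancel_right]
    exact subset_closure (Or.inr rfl)

theorem sw_P : mk1 (pC sw) ∈ normalizer ((closure ({zb, sb} : Set Spor.Co1) : Subgroup Spor.Co1) : Set Spor.Co1) := by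
  refine mem_P (sw_zb ▸ subset_closure (Or.inr rfl)) ?_
  rw [sb, ← map_inv, ← map_mul, ← map_mul, pC_conj_eps sw_mem (mem_octads.1 O1_mem).1, sw_OO.2]
  exact subset_closure (Or.inl rfl)

variable {G : Type u} [Group G] {Θ : Spor.Co1 → G} {Q : Subgroup G} {z s : G}

/-- the image of the group of sign changes -/
def Am.A (M : Am Θ Qb zb sb Q z s) : Subgroup G := ((Sg.map mk1).subgroupOf _).map M.H.hom

namespace Am

variable (M : Am Θ Qb zb sb Q z s)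
include M

theorem mem_A {x : G} : x ∈ M.A ↔ ∃ c ∈ Cs, Θ (mk1 (eps c)) = x :=
  ⟨by rintro ⟨⟨_, h⟩, ⟨_, ⟨c, hc, rfl⟩, rfl⟩, rfl⟩; exact ⟨c, hc, rfl⟩,
    fun ⟨c, hc, e⟩ => ⟨⟨_, eps_H hc⟩, ⟨_, ⟨c, hc, rfl⟩, rfl⟩, e⟩⟩

theorem a_mem {c : Finset Pt} (hc : c ∈ Cs) : Θ (mk1 (eps c)) ∈ M.A := M.mem_A.2 ⟨c, hc, rfl⟩

theorem a_mul {c d : Finset Pt} (hc : c ∈ Cs) (hd : d ∈ Cs) :
    Θ (mk1 (eps c)) * Θ (mk1 (eps d)) = Θ (mk1 (eps (c ∆ d))) := by
  rw [← M.H.mul _ (eps_H hc) _ (eps_H hd), ← map_mul, eps_mul hc hd]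

theorem a_inj {c d : Finset Pt} (hc : c ∈ Cs) (hd : d ∈ Cs) : Θ (mk1 (eps c)) = Θ (mk1 (eps d)) ↔ c = d ∨ c = dᶜ :=
  (M.H.eq_iff (eps_H hc) (eps_H hd)).trans (mk1_eps_inj hc hd)

theorem a_empty : Θ (mk1 (eps ∅)) = 1 := by rw [eps_empty, map_one, M.H.one]

theorem A_sq {x : G} (hx : x ∈ M.A) : x * x = 1 := by
  obtain ⟨c, hc, rfl⟩ := M.mem_A.1 hx
  rw [M.a_mul hc hc, symmDiff_self]
  exact M.a_empty

theorem A_comm {x y : G} (hx : x ∈ M.A) (hy : y ∈ M.A) : Commute x y := by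
  obtain ⟨c, hc, rfl⟩ := M.mem_A.1 hx
  obtain ⟨d, hd, rfl⟩ := M.mem_A.1 hy
  rw [Commute, SemiconjBy, M.a_mul hc hd, M.a_mul hd hc, symmDiff_comm]

theorem z_mem_A : z ∈ M.A := M.z ▸ M.a_mem OO_Cs

theorem card_A : Nat.card M.A = 2 ^ 11 := by
  have := card_map_mk1 ng_mem_Sg
  rw [A, card_map_of_injective (fun a b e => Subtype.ext ((M.H.eq_iff a.2 b.2).1 e)),
    Nat.card_congr (subgroupOfEquivOfLe (by rintro _ ⟨_, ⟨c, hc, rfl⟩, rfl⟩; exact eps_H hc)).toEquiv]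
  rw [card_Sg] at this
  omega

theorem mon_rel {c : Finset Pt} (hc : c ∈ Cs) {π : Perm Pt} (hπ : π ∈ St OO) {d : Finset Pt} (hd : d ∈ Cs) :
    Θ (mk1 (eps c * pC π)) * Θ (mk1 (eps d)) * (Θ (mk1 (eps c * pC π)))⁻¹ = Θ (mk1 (eps (π • d))) := by
  rw [← M.H.conj (mon_H hc hπ) (eps_H hd), ← map_inv, ← map_mul, ← map_mul, mono_conj_eps hc hd hπ.1]

theorem exists_mon {n : G} (h1 : Commute n z) (h2 : n ∈ normalizer (M.A : Set G)) :
    ∃ c ∈ Cs, ∃ π ∈ St OO, Θ (mk1 (eps c * pC π)) = n := by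
  obtain ⟨x, hx, rfl⟩ := M.H.surj n (mem_cent_iff.2 h1)
  obtain ⟨g, rfl⟩ := mk1_surj x
  obtain ⟨c, hc, π, hπ, rfl⟩ := mem_Mon_iff.1 (mem_Mon_of_norm (g := g) fun d hd => by
    obtain ⟨c, hc, e⟩ := M.mem_A.1 ((mem_normalizer_iff''.1 h2 _).1 (M.a_mem hd))
    rw [← M.H.inv hx, ← M.H.mul _ (inv_mem hx) _ (eps_H hd), ← M.H.mul _ (mul_mem (inv_mem hx) (eps_H hd)) _ hx,
      M.H.eq_iff (eps_H hc) (mul_mem (mul_mem (inv_mem hx) (eps_H hd)) hx), ← map_inv, ← map_mul, ← map_mul, eq_comm,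
      mk1_eq, ng_mul_eps hc, mul_assoc, inv_mul_eq_iff_eq_mul, inv_mul_eq_iff_eq_mul] at e
    rcases e with e | e
    exacts [⟨c, hc, e⟩, ⟨_, compl_mem_Cs hc, e⟩])
  exact ⟨c, hc, π, ⟨hπ, (mono_comm_eps hc OO_Cs hπ).1 (comm_zb.1 (mem_cent_iff.1 hx))⟩, rfl⟩

theorem eq_one_of_rel {π : Perm Pt} (hπ : π ∈ M24) (h : ∀ c ∈ Cs, Θ (mk1 (eps (π • c))) = Θ (mk1 (eps c))) : π = 1 :=
  eq_one_of_oct fun o ho => oct_eq_of hπ ho ho
    ((M.a_inj (smul_mem_Cs hπ (mem_octads.1 ho).1) (mem_octads.1 ho).1).1 (h o (mem_octads.1 ho).1))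

theorem cent_A [Finite G] {n : G} (h : ∀ x ∈ M.A, Commute n x) : n ∈ M.A := by
  obtain ⟨c, hc, π, hπ, rfl⟩ := M.exists_mon (h _ M.z_mem_A) (Loc.mem_norm_of_conj_mem fun x hx => by
    rwa [(h x hx).eq, mul_inv_cancel_right])
  obtain rfl := M.eq_one_of_rel hπ.1 fun d hd => by
    rw [← M.mon_rel hc hπ hd, (h _ (M.a_mem hd)).eq, mul_inv_cancel_right]
  rw [pC_one, mul_one]
  exact M.a_mem hc

theorem exists_f [Finite G] : ∃ f : normalizer (M.A : Set G) →* M24, Function.Surjective f ∧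
    (∀ n : normalizer (M.A : Set G), ∀ c ∈ Cs, n * Θ (mk1 (eps c)) * (n : G)⁻¹ = Θ (mk1 (eps ((f n : Perm Pt) • c)))) ∧
    f.ker = M.A.subgroupOf _ := by
  let R : G → Perm Pt → Prop := fun n π => ∀ c ∈ Cs, n * Θ (mk1 (eps c)) * n⁻¹ = Θ (mk1 (eps (π • c)))
  have Rmul : ∀ n π n' π', π' ∈ M24 → R n π → R n' π' → R (n * n') (π * π') := fun n π n' π' h' h1 h2 c hc => by
    rw [mul_smul, ← h1 _ (smul_mem_Cs h' hc), ← h2 c hc]; group
  have Rinv : ∀ n π, π ∈ M24 → R n π → R n⁻¹ π⁻¹ := fun n π h h1 c hc => by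
    have := h1 _ (smul_mem_Cs (inv_mem h) hc)
    rw [smul_inv_smul] at this
    rw [← this]; group
  have R1 : R 1 1 := fun c hc => by rw [one_smul]; group
  let N0 : Subgroup G :=
    { carrier := {n | ∃ π ∈ M24, R n π}
      mul_mem' := fun ⟨π, h, e⟩ ⟨π', h', e'⟩ => ⟨_, mul_mem h h', Rmul _ _ _ _ h' e e'⟩
      one_mem' := ⟨1, one_mem _, R1⟩
      inv_mem' := fun ⟨π, h, e⟩ => ⟨_, inv_mem h, Rinv _ _ h e⟩ }
  have hs : ∀ π ∈ M24, ∃ n, R n π := fun π hπ => (M24_le_of (L :=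
    { carrier := {π | π ∈ M24 ∧ ∃ n, R n π}
      mul_mem' := fun ⟨h, n, e⟩ ⟨h', n', e'⟩ => ⟨mul_mem h h', _, Rmul _ _ _ _ h' e e'⟩
      one_mem' := ⟨one_mem _, 1, R1⟩
      inv_mem' := fun ⟨h, n, e⟩ => ⟨inv_mem h, _, Rinv _ _ h e⟩ })
    (fun π h => ⟨h.1, _, fun d hd => M.mon_rel empty_mem_Cs h hd⟩) ⟨sw_mem, Θ (mk1 (pC sw)), fun d hd => by
      rw [← M.P.conj sw_P (eps_P hd), ← map_inv, ← map_mul, ← map_mul, pC_conj_eps sw_mem hd]⟩ hπ).2
  have h0 : N0 ≤ normalizer (M.A : Set G) := fun n ⟨π, h, e⟩ => Loc.mem_norm_of_conj_mem fun x hx => by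
    obtain ⟨c, hc, rfl⟩ := M.mem_A.1 hx
    exact e c hc ▸ M.a_mem (smul_mem_Cs h hc)
  have h1 : ∀ n ∈ normalizer (M.A : Set G), Commute n z → n ∈ N0 := fun n hn h => by
    obtain ⟨c, hc, π, hπ, rfl⟩ := M.exists_mon h hn
    exact ⟨π, hπ.1, fun d hd => M.mon_rel hc hπ hd⟩
  have hz : z = Θ (mk1 (eps OO)) := M.z.symm
  have h2 : (centralizer ({z} : Set G)).relIndex N0 = 759 := by
    rw [Loc.relIndex_cent, ← ncard_octads, ← Set.InjOn.ncard_image (s := octads) (f := fun c => Θ (mk1 (eps c)))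
      fun o ho o' ho' e => by
        have := oct_eq_of (one_mem _) ho ho'
        rw [one_smul] at this
        exact this ((M.a_inj (mem_octads.1 ho).1 (mem_octads.1 ho').1).1 e)]
    congr 1
    ext y
    constructor
    · rintro ⟨n, ⟨π, h, e⟩, rfl⟩
      exact ⟨_, smul_mem_octads h O0_mem, (hz ▸ e _ OO_Cs).symm⟩
    · rintro ⟨o, ho, rfl⟩
      obtain ⟨π, h, rfl⟩ := octad_transitive O0_mem ho
      obtain ⟨n, e⟩ := hs π h
      exact ⟨n, ⟨π, h, e⟩, hz ▸ e _ OO_Cs⟩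
  have h3 : ∀ x ∈ M.A, x ≠ 1 → ∃ n ∈ N0, n * z * n⁻¹ = x ∨ n * Θ (mk1 (eps (unmask D0))) * n⁻¹ = x := by
    have ko : ∀ o ∈ octads, ∃ n ∈ N0, n * z * n⁻¹ = Θ (mk1 (eps o)) := fun o ho => by
      obtain ⟨π, h, rfl⟩ := octad_transitive O0_mem ho
      obtain ⟨n, e⟩ := hs π h
      exact ⟨n, ⟨π, h, e⟩, hz ▸ e _ OO_Cs⟩
    intro x hx hx1
    obtain ⟨c, hc, rfl⟩ := M.mem_A.1 hx
    rcases card_of_mem_Cs hc with r | r | r | r | r
    · exact absurd (Finset.card_eq_zero.1 r ▸ M.a_empty) hx1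
    · exact (ko c (mem_octads.2 ⟨hc, r⟩)).imp fun _ h => ⟨h.1, Or.inl h.2⟩
    · obtain ⟨π, h, rfl⟩ := dodecad_transitive D0_mem (mem_dodecads.2 ⟨hc, r⟩)
      obtain ⟨n, e⟩ := hs π h
      exact ⟨n, ⟨π, h, e⟩, Or.inr (e _ (mem_dodecads.1 D0_mem).1)⟩
    · rw [← mk1_compl hc]
      exact (ko cᶜ (mem_octads.2 ⟨compl_mem_Cs hc, by rw [Finset.card_compl, card_Pt, r]⟩)).imp
        fun _ h => ⟨h.1, Or.inl h.2⟩
    · rw [← mk1_compl hc, Finset.card_eq_zero.1 (show cᶜ.card = 0 by rw [Finset.card_compl, card_Pt, r])] at hx1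
      exact absurd M.a_empty hx1
  have z1 : z ≠ 1 := fun e => absurd ((M.a_inj OO_Cs empty_mem_Cs).1 (hz.symm.trans (e.trans M.a_empty.symm)))
    (by decide +kernel)
  have hc : ∀ n ∈ normalizer (M.A : Set G), n * z * n⁻¹ ∈ M.A ∧ n * z * n⁻¹ ≠ 1 := fun n hn =>
    ⟨(mem_normalizer_iff.1 hn _).1 M.z_mem_A, fun e => z1 (by simpa using e)⟩
  have h4 : normalizer (M.A : Set G) ≤ N0 := fun n hn => by
    obtain ⟨m, hm, e | e⟩ := h3 _ (hc n hn).1 (hc n hn).2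
    · refine (mul_mem_cancel_left (inv_mem hm)).1 (h1 _ (mul_mem (inv_mem (h0 hm)) hn) ?_)
      rw [Commute, SemiconjBy, mul_assoc, mul_inv_eq_iff_eq_mul.1 e.symm]; group
    exfalso
    have d1 : (centralizer ({z} : Set G) ⊓ normalizer (M.A : Set G)).relIndex N0 = 759 := by
      rw [← h2, ← inf_relIndex_right, inf_assoc, inf_eq_right.2 h0, inf_relIndex_right]
    have d2 := relIndex_mul_relIndex _ _ _ (fun n hn => h1 n hn.2 (mem_cent_iff.1 hn.1) :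
      centralizer ({z} : Set G) ⊓ normalizer (M.A : Set G) ≤ N0) h0
    rw [d1, inf_relIndex_right, Loc.relIndex_cent, show {y | ∃ c ∈ normalizer (M.A : Set G), c * z * c⁻¹ = y} =
      (M.A : Set G) \ {1} from Set.ext fun y => ⟨by rintro ⟨c, hc', rfl⟩; exact hc c hc', fun hy => by
        obtain ⟨k, hk, r | r⟩ := h3 y hy.1 hy.2
        · exact ⟨k, h0 hk, r⟩
        · refine ⟨k * m⁻¹ * n, mul_mem (mul_mem (h0 hk) (inv_mem (h0 hm))) hn, ?_⟩
          rw [← r, show Θ (mk1 (eps (unmask D0))) = m⁻¹ * (n * z * n⁻¹) * m by rw [← e]; group]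
          group⟩,
      Set.ncard_diff_singleton_of_mem (one_mem M.A), ← Nat.card_coe_set_eq, SetLike.coe_sort_coe, M.card_A] at d2
    omega
  obtain ⟨f, hf⟩ := exists_hom_of_rel (D := normalizer (M.A : Set G)) (Y := M24) (fun n π => R n π)
    (fun _ _ _ y => Rmul _ _ _ _ y.2) (fun _ y => Rinv _ _ y.2)
    (fun n => let ⟨π, h, e⟩ := h4 n.2; ⟨⟨π, h⟩, e⟩)
    fun y e => Subtype.ext (M.eq_one_of_rel y.2 fun c hc => by rw [← e c hc]; simp)
  refine ⟨f, fun π => ?_, fun n => (hf n _).1 rfl, ?_⟩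
  · obtain ⟨n, e⟩ := hs π π.2
    exact ⟨⟨n, h0 ⟨_, π.2, e⟩⟩, (hf _ _).2 e⟩
  · ext n
    rw [MonoidHom.mem_ker, hf, mem_subgroupOf]
    refine ⟨fun e => M.cent_A fun x hx => ?_, fun e c hc => ?_⟩
    · obtain ⟨c, hc, rfl⟩ := M.mem_A.1 hx
      exact mul_inv_eq_iff_eq_mul.1 ((e c hc).trans (by rw [OneMemClass.coe_one, one_smul]))
    · rw [(M.A_comm e (M.a_mem hc)).eq, mul_inv_cancel_right, OneMemClass.coe_one, one_smul]

theorem exists_conj [Finite G] {π : Perm Pt} (hπ : π ∈ M24) : ∃ n ∈ normalizer (M.A : Set G),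
    ∀ c ∈ Cs, n * Θ (mk1 (eps c)) * n⁻¹ = Θ (mk1 (eps (π • c))) := by
  obtain ⟨f, h1, h2, -⟩ := M.exists_f
  obtain ⟨n, e⟩ := h1 ⟨π, hπ⟩
  exact ⟨n, n.2, fun c hc => by rw [h2 n c hc, e]⟩

theorem A_cases [Finite G] {x : G} (hx : x ∈ M.A) (hx1 : x ≠ 1) : ∃ n ∈ normalizer (M.A : Set G),
    n * x * n⁻¹ = z ∨ n * x * n⁻¹ = Θ (mk1 (eps (unmask D0))) := by
  have ko : ∀ o ∈ octads, ∃ n ∈ normalizer (M.A : Set G), n * Θ (mk1 (eps o)) * n⁻¹ = z := fun o ho => by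
    obtain ⟨π, h, e⟩ := octad_transitive ho O0_mem
    obtain ⟨n, hn, e'⟩ := M.exists_conj h
    exact ⟨n, hn, by rw [e' _ (mem_octads.1 ho).1, e]; exact M.z⟩
  obtain ⟨c, hc, rfl⟩ := M.mem_A.1 hx
  rcases card_of_mem_Cs hc with r | r | r | r | r
  · exact absurd (Finset.card_eq_zero.1 r ▸ M.a_empty) hx1
  · exact (ko c (mem_octads.2 ⟨hc, r⟩)).imp fun _ h => ⟨h.1, Or.inl h.2⟩
  · obtain ⟨π, h, e⟩ := dodecad_transitive (mem_dodecads.2 ⟨hc, r⟩) D0_mem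
    obtain ⟨n, hn, e'⟩ := M.exists_conj h
    exact ⟨n, hn, Or.inr (by rw [e' _ hc, e])⟩
  · rw [← mk1_compl hc]
    exact (ko cᶜ (mem_octads.2 ⟨compl_mem_Cs hc, by rw [Finset.card_compl, card_Pt, r]⟩)).imp
      fun _ h => ⟨h.1, Or.inl h.2⟩
  · rw [← mk1_compl hc, Finset.card_eq_zero.1 (show cᶜ.card = 0 by rw [Finset.card_compl, card_Pt, r])] at hx1
    exact absurd M.a_empty hx1

theorem mon_N [Finite G] {c : Finset Pt} (hc : c ∈ Cs) {π : Perm Pt} (hπ : π ∈ St OO) :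
    Θ (mk1 (eps c * pC π)) ∈ normalizer (M.A : Set G) := Loc.mem_norm_of_conj_mem fun x hx => by
  obtain ⟨d, hd, rfl⟩ := M.mem_A.1 hx
  exact M.mon_rel hc hπ hd ▸ M.a_mem (smul_mem_Cs hπ.1 hd)

theorem f_eq {f : normalizer (M.A : Set G) →* M24}
    (hf : ∀ n : normalizer (M.A : Set G), ∀ c ∈ Cs, n * Θ (mk1 (eps c)) * (n : G)⁻¹ =
      Θ (mk1 (eps ((f n : Perm Pt) • c)))) {n : normalizer (M.A : Set G)} {c : Finset Pt} (hc : c ∈ Cs) {π : Perm Pt}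
    (hπ : π ∈ St OO) (e : Θ (mk1 (eps c * pC π)) = n) : (f n : Perm Pt) = π := by
  refine inv_mul_eq_one.1 (eq_one_of_oct fun o ho => ?_)
  have ho' := (mem_octads.1 ho).1
  rw [mul_smul, inv_smul_eq_iff]
  exact oct_eq_of hπ.1 ho (smul_mem_octads (f n).2 ho) ((M.a_inj (smul_mem_Cs hπ.1 ho') (smul_mem_Cs (f n).2 ho')).1
    (by rw [← hf n o ho', ← e, M.mon_rel hc hπ ho']))

theorem comm_z {f : normalizer (M.A : Set G) →* M24}
    (hf : ∀ n : normalizer (M.A : Set G), ∀ c ∈ Cs, n * Θ (mk1 (eps c)) * (n : G)⁻¹ =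
      Θ (mk1 (eps ((f n : Perm Pt) • c)))) {n : normalizer (M.A : Set G)} (h : (f n : Perm Pt) ∈ St OO) :
    Commute (n : G) z := by
  have := hf n _ OO_Cs
  rw [h.2, show Θ (mk1 (eps OO)) = z from M.z] at this
  exact mul_inv_eq_iff_eq_mul.1 this

theorem index_U {f : normalizer (M.A : Set G) →* M24} (hf : Function.Surjective f) :
    (((St OO).subgroupOf M24).comap f).index = 759 := by
  have := ((St OO).subgroupOf M24).card_mul_index
  rw [Nat.card_congr (subgroupOfEquivOfLe inf_le_left).toEquiv, card_stab_octad O0_mem, card_M24] at this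
  rw [index_comap_of_surjective _ hf]
  omega

theorem split [Finite G] : ∃ K : Subgroup (normalizer (M.A : Set G)), (M.A.subgroupOf _).IsComplement' K := by
  obtain ⟨f, h1, h2, h3⟩ := M.exists_f
  have pH : ∀ π ∈ St OO, mk1 (pC π) ∈ centralizer {zb} := fun π h => by
    have := mon_H empty_mem_Cs h
    rwa [eps_empty, one_mul] at this
  refine exists_complement _ (((St OO).subgroupOf M24).comap f)
    { carrier := {n | ∃ π ∈ St OO, Θ (mk1 (pC π)) = n}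
      mul_mem' := fun ⟨π, h, e⟩ ⟨ρ, h', e'⟩ => ⟨_, mul_mem h h', by
        rw [pC_mul h.1 h'.1, map_mul, M.H.mul _ (pH _ h) _ (pH _ h'), e, e', coe_mul]⟩
      one_mem' := ⟨1, one_mem _, by rw [pC_one, map_one, M.H.one, coe_one]⟩
      inv_mem' := fun ⟨π, h, e⟩ => ⟨_, inv_mem h, by rw [pC_inv h.1, map_inv, M.H.inv (pH _ h), e, coe_inv]⟩ }
    (fun k hk => Subtype.ext (M.A_sq hk)) (fun k hk => ?_) (by rw [M.index_U h1]; decide)
    (fun n ⟨π, h, e⟩ => ?_) (fun n ⟨π, h, e⟩ hn => ?_) fun u hu => ?_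
  · rw [← h3, MonoidHom.mem_ker] at hk
    rw [mem_comap, hk]
    exact one_mem _
  · rw [mem_comap, mem_subgroupOf, M.f_eq h2 empty_mem_Cs h (by rwa [eps_empty, one_mul])]
    exact h
  · have := M.f_eq h2 empty_mem_Cs h (by rwa [eps_empty, one_mul])
    rw [← h3, MonoidHom.mem_ker] at hn
    rw [hn] at this
    rw [← this, coe_one, pC_one, map_one, M.H.one] at e
    exact Subtype.ext e.symm
  · obtain ⟨c, hc, π, hπ, e⟩ := M.exists_mon (M.comm_z h2 hu) u.2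
    have := M.mon_N empty_mem_Cs hπ
    rw [eps_empty, one_mul] at this
    refine ⟨⟨_, this⟩, ⟨π, hπ, rfl⟩, mem_subgroupOf.2 ?_⟩
    rw [coe_mul, coe_inv, ← e, map_mul, M.H.mul _ (eps_H hc) _ (pH _ hπ), mul_inv_cancel_right]
    exact M.a_mem hc

end Am

theorem exists_am8 [Finite G] {z : G} (hz : orderOf z = 2) (Q : Subgroup (centralizer ({z} : Set G))) [Q.Normal]
    (hF : generalizedFittingSubgroup (centralizer ({z} : Set G)) = Q) (hQ : IsExtraspecial 2 Q)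
    (hcard : Nat.card Q = 2 ^ 9) (e : centralizer ({z} : Set G) ⧸ Q ≃* Omega (ZMod 2) (quadFormPlus 4 (ZMod 2)))
    (hnwc : ∃ g : G, (∃ hq : g * z * g⁻¹ ∈ centralizer ({z} : Set G),
      (⟨g * z * g⁻¹, hq⟩ : centralizer ({z} : Set G)) ∈ Q) ∧ g * z * g⁻¹ ≠ z) :
    ∃ s Qs, TH (Q.map (centralizer {z}).subtype) Qs z s 512 174182400 ∧
      ∃ Θ, Am Θ Qb zb sb (Q.map (centralizer {z}).subtype) z s := by
  obtain ⟨g, ⟨hq, h1⟩, h2⟩ := hnwc
  have h := TH.of_hyp hz Q hF hQ (a := 512) (N := 174182400) hcard (by norm_num)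
    (by rw [card_of_quot Q e, hcard, card_omega8p]; rfl) hq h1 h2
  obtain ⟨_, h0⟩ := th_Co1
  exact ⟨_, _, h, (amal8p h0 h).2.2⟩

end

end CA.Typ

theorem CA.Typ.realizeEqnsB2 : True := by
  have := @CA.Typ.Am.A.eq_1.{0}
  have := @CA.Typ.Am.A.eq_def.{0}
  have := @CA.Typ.Am.A.congr_simp.{0}
  trivial
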