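/-
The classes of involutions of a group of the first Conway type.
-/
import Cfsg.Agent.Typ.B2
import Cfsg.Agent.Typ.A9

set_option autoImplicit false
set_option maxRecDepth 100000

namespace CA.Typ

open Subgroup CA.Fi CA.M24 Cfsg Equiv
open scoped Pointwise symmDiff

noncomputable section

local notation "Λ" => leechLattice

universe u

/-- two words give the same automorphism up to sign -/
def weqm (l l' : Word) : Bool := bor (weq l l') (weq l (l' ++ [(pone, full, false)]))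

theorem weqm_spec {l l' : Word} (h : weqm l l' = true) : mk1 (wordC l) = mk1 (wordC l') := by
  rcases bor_eq_true.1 h with h | h
  · rw [weq_spec h]
  · rw [weq_spec h, wordC_append, wordC_eps, ← mask_univ, unmask_mask, map_mul, show eps Finset.univ = ng from rfl,
      mk1_ng, one_mul]

theorem wordC_mono (c s : ℕ) : wordC [(c, s, false)] = eps (unmask s) * pC (perm c)⁻¹ := by
  show 1 * (1 * eps (unmask s) * pC (perm c)⁻¹) = _
  rw [one_mul, one_mul]

theorem mk1_mono {c d : Finset Pt} (hc : c ∈ Cs) (hd : d ∈ Cs) {π ρ : Perm Pt} (hπ : π ∈ M24) (hρ : ρ ∈ M24) :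
    mk1 (eps c * pC π) = mk1 (eps d * pC ρ) ↔ (c = d ∨ c = dᶜ) ∧ π = ρ := by
  rw [mk1_eq, ← mul_assoc, ng_mul_eps hd, or_and_right]
  exact or_congr ⟨mono_inj hπ hρ hc hd, fun ⟨a, b⟩ => a ▸ b ▸ rfl⟩
    ⟨mono_inj hπ hρ hc (compl_mem_Cs hd), fun ⟨a, b⟩ => a ▸ b ▸ rfl⟩

theorem sd_aux {c k d e : Finset Pt} (h : c ∆ k = d ∆ e ∨ (c ∆ k)ᶜ = d ∆ e) : d ∆ c ∆ e = k ∨ d ∆ c ∆ e = kᶜ := by
  refine h.imp (fun e => Finset.ext fun x => ?_) fun e => Finset.ext fun x => ?_ <;>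
    have := Finset.ext_iff.1 e x <;> simp only [Finset.mem_symmDiff, Finset.mem_compl] at this ⊢ <;> tauto

/-- the involutions in a coset of the group of sign changes -/
def cosChk (r : ℕ) (ds : List (ℕ × ℕ)) (reps : List ℕ) : Bool :=
  band (allL (fun d => band (isC d.1) (Nat.beq d.2 (Nat.xor d.1 (mapp r d.1)))) ds)
    (allP (fun k => force (cw k) fun c => force (Nat.xor c (mapp r c)) fun e =>
      bimp (bor (Nat.beq e 0) (Nat.beq e full)) (anyL (fun k0 => force (Nat.xor c k0) fun y =>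
        anyL (fun d => bor (Nat.beq y d.2) (Nat.beq (Nat.xor full y) d.2)) ds) reps)) 12 0)

theorem cosChk_spec {π : Perm Pt} (hπ : π ∈ M24) {ds : List (ℕ × ℕ)} {reps : List ℕ}
    (h : cosChk (code π) ds reps = true) (hr : ∀ k ∈ reps, isC k = true) {c : Finset Pt} (hc : c ∈ Cs)
    (h2 : mk1 (eps c * pC π) * mk1 (eps c * pC π) = 1) : ∃ k ∈ reps, ∃ d ∈ Cs,
      mk1 (eps d) * mk1 (eps c * pC π) * (mk1 (eps d))⁻¹ = mk1 (eps (unmask k) * pC π) := by
  rw [cosChk, band_eq_true] at h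
  obtain ⟨j, hj, e⟩ := exists_cw hc
  have h1 := allP_zero h.2 j hj
  rw [← map_mul, mono_mul hc hc hπ hπ, show (1 : Spor.Co1) = mk1 (eps ∅ * pC 1) by
    rw [eps_empty, pC_one, mul_one, map_one], mk1_mono (symmDiff_mem_Cs hc (smul_mem_Cs hπ hc)) empty_mem_Cs (mul_mem hπ hπ) (one_mem _)] at h2
  simp only [force_eq, e, mapp_code, ← mask_symmDiff, bimp_eq_true, bor_eq_true, beq_iff, anyL_eq_true] at h1
  obtain ⟨k, hk, d, hd, h3⟩ := h1 (h2.1.imp (fun e => by rw [e, mask_empty]) fun e => by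
    rw [e, Finset.compl_empty, mask_univ])
  have h4 := allL_eq_true.1 h.1 d hd
  rw [band_eq_true, beq_iff] at h4
  obtain ⟨a1, a2⟩ := unmask_mem_Cs h4.1
  obtain ⟨b1, b2⟩ := unmask_mem_Cs (hr k hk)
  refine ⟨k, hk, _, a1, ?_⟩
  rw [h4.2, ← a2, ← b2, mapp_code, ← mask_symmDiff, ← mask_symmDiff, ← mask_compl, mask_inj.eq_iff,
    mask_inj.eq_iff] at h3
  rw [← map_inv, ← map_mul, ← map_mul, eps_inv a1, ← mul_assoc, mul_assoc _ (pC π), pC_mul_eps hπ a1, ← mul_assoc,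
    eps_mul a1 hc, eps_mul (symmDiff_mem_Cs a1 hc) (smul_mem_Cs hπ a1),
    mk1_mono (symmDiff_mem_Cs (symmDiff_mem_Cs a1 hc) (smul_mem_Cs hπ a1)) b1 hπ hπ]
  exact ⟨sd_aux h3, rfl⟩

def repChk (r : ℕ) (x : ℕ × Word × ℕ) : Bool :=
  band (band (isC x.1) (isC x.2.2)) (band (weq (x.2.1 ++ zW) (zW ++ x.2.1))
    (weq ((r, x.1, false) :: x.2.1) (x.2.1 ++ [(pone, x.2.2, false)])))

theorem repChk_spec {r : ℕ} (hr : (perm r)⁻¹ = perm r) {x : ℕ × Word × ℕ} (h : repChk r x = true) :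
    isC x.1 = true ∧ ∃ g, Commute g (eps OO) ∧ ∃ d ∈ Cs, g * (eps (unmask x.1) * pC (perm r)) * g⁻¹ = eps d := by
  simp only [repChk, band_eq_true] at h
  have := weq_spec h.2.2
  rw [wordC_append, wordC_eps, ← List.singleton_append, wordC_append, wordC_mono, hr] at this
  exact ⟨h.1.1, _, comm_zW h.2.1, _, (unmask_mem_Cs h.1.2).1, mul_inv_eq_iff_eq_mul.2 this⟩

def dsA : List (ℕ × ℕ) := [(nat_lit 0, nat_lit 0), (nat_lit 13062145, nat_lit 4536592), (nat_lit 4845570, nat_lit 7903248), (nat_lit 9347075, nat_lit 4038912), (nat_lit 15515712, nat_lit 5538256), (nat_lit 2854977, nat_lit 1161408), (nat_lit 10825794, nat_lit 2890176), (nat_lit 6447171, nat_lit 6889680), (nat_lit 8077824, nat_lit 5350928), (nat_lit 12325377, nat_lit 1351424), (nat_lit 3322370, nat_lit 2702848), (nat_lit 16114179, nat_lit 7079696), (nat_lit 9929280, nat_lit 337856), (nat_lit 5296705, nat_lit 4202192), (nat_lit 14578242, nat_lit 8241104), (nat_lit 1647171,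 nat_lit 3704512)]
def rpA : List (ℕ × Word × ℕ) := [(nat_lit 0, [(nat_lit 108073962597587630725561592980715617, nat_lit 3246601, true)], nat_lit 5780352),
  (nat_lit 18147, [(nat_lit 727761348332542844362618581048941666, nat_lit 3757673, true)], nat_lit 6970936),
  (nat_lit 75309, [(nat_lit 598720989874018850718835424803085361, nat_lit 16647784, true)], nat_lit 5983592),
  (nat_lit 90318, [(nat_lit 5617323865083588161565455462489265, nat_lit 11287691, true)], nat_lit 8307000),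
  (nat_lit 138790, [(nat_lit 224870694132295442275376490373432385, nat_lit 10799573, true)], nat_lit 15741767),
  (nat_lit 153797, [(nat_lit 971614241135038605949106209147587745, nat_lit 14330901, true)], nat_lit 7820456),
  (nat_lit 210955, [(nat_lit 735007443424217238740507493471945824, nat_lit 6565364, true)], nat_lit 15741767),
  (nat_lit 229096, [(nat_lit 714408038562731843235872556763354563, nat_lit 2274742, true)], nat_lit 10237015)]
def rB : ℕ := nat_lit 217437741856946576346324254170564035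
def dsB : List (ℕ × ℕ) := [(nat_lit 0, nat_lit 0), (nat_lit 13062145, nat_lit 15192751), (nat_lit 4845570, nat_lit 6889680), (nat_lit 9347075, nat_lit 9368191), (nat_lit 13938692, nat_lit 14033892), (nat_lit 1302533, nat_lit 3273035), (nat_lit 10305542, nat_lit 12518196), (nat_lit 5902343, nat_lit 5820827), (nat_lit 7221256, nat_lit 7320285), (nat_lit 11100169, nat_lit 8937586), (nat_lit 2605066, nat_lit 430605), (nat_lit 14716939, nat_lit 14762146), (nat_lit 12222476, nat_lit 12161337), (nat_lit 8245261, nat_lit 6177686), (nat_lit 15953934, nat_lit 13677033), (nat_lit 3416079, nat_lit 3629894), (nat_lit 10170384, nat_lit 11776356), (nat_lit 6053905, nat_lit 5530571), (nat_lit 13811730, nat_lit 14324148), (nat_lit 1413139, nat_lit 4014875), (nat_lit 5210132, nat_lit 6656640), (nat_lit 8966165, nat_lit 8536111), (nat_lit 421910, nat_lit 832080), (nat_lit 12656663, nat_lit 15425791), (nat_lit 16056344, nat_lit 14418873), (nat_lit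 3297305, nat_lit 3920150), (nat_lit 12382234, nat_lit 11871081), (nat_lit 8101915, nat_lit 5435846), (nat_lit 2207772, nat_lit 663645), (nat_lit 15130653, nat_lit 15594226), (nat_lit 6832158, nat_lit 6488205), (nat_lit 11472927, nat_lit 8704546)]
def rpB : List (ℕ × Word × ℕ) := [(nat_lit 0, [(nat_lit 960949601321253443455570791745193134, nat_lit 3678105, true)], nat_lit 12153634)]

theorem rB_in : InH M24 rB := inM_of_chk (by decide +kernel)

theorem inv_perm {r : ℕ} (h : InH M24 r) (e : pinv r = r) : (perm r)⁻¹ = perm r :=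
  code_inj (by rw [← pinv_code, h.code_perm, e])

theorem mem_StO {r : ℕ} (h : InH M24 r) (e : mapp r O0 = O0) : perm r ∈ St OO :=
  ⟨h.perm_mem, mask_inj (by rw [← mapp_code, h.code_perm, mask_O0, e])⟩

theorem r2A_St : perm r2A ∈ St OO := mem_StO r2A_in (by decide +kernel)
theorem rB_St : perm rB ∈ St OO := mem_StO rB_in (by decide +kernel)

theorem conj_rB {π : Perm Pt} (h : ∃ k ∈ M24, k * π * k⁻¹ = perm r2B) : ∃ k ∈ M24, k * π * k⁻¹ = perm rB := by
  obtain ⟨k, hk, e⟩ := h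
  have h1 : InH M24 (nat_lit 609165149036972738719331675883123169) := inM_of_chk (by decide +kernel)
  refine ⟨_, mul_mem h1.perm_mem hk, conj_trans (e ▸ code_inj ?_)⟩
  rw [← pmul_code, ← pmul_code, ← pinv_code, h1.code_perm, r2B_in.code_perm, rB_in.code_perm]
  decide +kernel

/-- an element whose square is minus one -/
def bb : Co0 := eps (unmask 255921) * pC (perm rB)

theorem bb_H : mk1 bb ∈ centralizer {zb} := mon_H (unmask_mem_Cs (by decide +kernel)).1 rB_St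

theorem bb_eq : wordC [(rB, 255921, false)] = bb := by rw [wordC_mono, inv_perm rB_in (by decide +kernel), bb]

theorem bb_sq : bb * bb = ng := by
  have := weq_spec (l := [(rB, 255921, false)] ++ [(rB, 255921, false)]) (l' := [(pone, full, false)])
    (by decide +kernel)
  rwa [wordC_append, bb_eq, wordC_eps, ← mask_univ, unmask_mask] at this

theorem rep_conj {r : ℕ} {x : ℕ × Word × ℕ} {d : Finset Pt} {y : Spor.Co1} (hr : (perm r)⁻¹ = perm r)
    (h : repChk r x = true) (hd : d ∈ Cs)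
    (e : mk1 (eps d) * y * (mk1 (eps d))⁻¹ = mk1 (eps (unmask x.1) * pC (perm r))) :
    ∃ g ∈ centralizer {zb}, ∃ d ∈ Cs, g * y * g⁻¹ = mk1 (eps d) := by
  obtain ⟨-, g, h1, d', hd', e'⟩ := repChk_spec hr h
  refine ⟨mk1 g * mk1 (eps d), mul_mem (mem_cent_iff.2 (comm_zb.2 h1)) (eps_H hd), d', hd', ?_⟩
  rw [← e', map_mul mk1, map_mul mk1, ← e, map_inv]
  group

theorem repA : allL (repChk r2A) rpA = true := by decide +kernel
theorem repB : allL (repChk rB) rpB = true := by decide +kernel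
theorem cosA : cosChk (code (perm r2A)) dsA (rpA.map (·.1)) = true := by rw [r2A_in.code_perm]; decide +kernel
theorem cosB : cosChk (code (perm rB)) dsB (255921 :: rpB.map (·.1)) = true := by rw [rB_in.code_perm]; decide +kernel
theorem isA : ∀ k ∈ rpA.map (·.1), isC k = true := allL_eq_true.1 (by decide +kernel)
theorem isB : ∀ k ∈ 255921 :: rpB.map (·.1), isC k = true := allL_eq_true.1 (by decide +kernel)

theorem coset_cases {π : Perm Pt} (h : π = perm r2A ∨ π = perm rB) {c : Finset Pt} (hc : c ∈ Cs)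
    (h2 : mk1 (eps c * pC π) * mk1 (eps c * pC π) = 1) : ∃ g ∈ centralizer {zb},
      (∃ d ∈ Cs, g * mk1 (eps c * pC π) * g⁻¹ = mk1 (eps d)) ∨ g * mk1 (eps c * pC π) * g⁻¹ = mk1 bb := by
  rcases h with h | h <;> subst h
  · obtain ⟨k, hk, d, hd, e⟩ := cosChk_spec r2A_in.perm_mem cosA isA hc h2
    obtain ⟨x, hx, rfl⟩ := List.mem_map.1 hk
    obtain ⟨g, h1, h2⟩ := rep_conj (inv_perm r2A_in (by decide +kernel)) (allL_eq_true.1 repA x hx) hd e
    exact ⟨g, h1, Or.inl h2⟩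
  · obtain ⟨k, hk, d, hd, e⟩ := cosChk_spec rB_in.perm_mem cosB isB hc h2
    rcases List.mem_cons.1 hk with rfl | hk
    · exact ⟨_, eps_H hd, Or.inr e⟩
    obtain ⟨x, hx, rfl⟩ := List.mem_map.1 hk
    obtain ⟨g, h1, h2⟩ := rep_conj (inv_perm rB_in (by decide +kernel)) (allL_eq_true.1 repB x hx) hd e
    exact ⟨g, h1, Or.inl h2⟩

def xW : Word := [(nat_lit 61764042340984515751989378497496224, 12382234, false)]

theorem xW_H : mk1 (wordC xW) ∈ centralizer {zb} := mem_cent_iff.2 (comm_zb.2 (comm_zW (by decide +kernel)))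

theorem xW_b : Commute (mk1 (wordC xW)) (mk1 bb) := by
  have := weqm_spec (l := [(rB, 255921, false)] ++ xW) (l' := xW ++ [(rB, 255921, false)]) (by decide +kernel)
  rwa [wordC_append, wordC_append, bb_eq, map_mul, map_mul] at this

theorem xW_pow : mk1 (wordC xW) ^ 8 = zb := by
  have := weqm_spec (l := xW ++ (xW ++ (xW ++ (xW ++ (xW ++ (xW ++ (xW ++ xW))))))) (l' := zW) (by decide +kernel)
  simp only [wordC_append, map_mul] at this
  rw [zb, ← wordC_eps, ← zW, ← this]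
  simp only [pow_succ, pow_zero, one_mul]

theorem cent_xb {u : Spor.Co1} (hu : u ∈ Qb) (h1 : Commute u (mk1 (wordC xW))) (h2 : Commute u (mk1 bb)) :
    u = 1 ∨ u = zb := by
  obtain ⟨_, hk, rfl⟩ := hu
  obtain ⟨c, hc, hd, π, hπ, hf, rfl⟩ := mem_KK.1 hk
  have key : ∀ {a r : ℕ}, isC a = true → InH M24 r → Commute (mk1 (eps c * pC π)) (mk1 (eps (unmask a) * pC (perm r))) →
      band (commB (code π) r) (memL (Nat.xor (Nat.xor (mask c) (mapp (code π) a)) (Nat.xor a (mapp r (mask c))))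
        [0, full]) = true := fun {a r} ha hr h => by
    obtain ⟨a1, a2⟩ := unmask_mem_Cs ha
    have r1 := hr.perm_mem
    rw [Commute, SemiconjBy, ← map_mul, ← map_mul, mono_mul hc a1 hπ r1, mono_mul a1 hc r1 hπ,
      mk1_mono (symmDiff_mem_Cs hc (smul_mem_Cs hπ a1)) (symmDiff_mem_Cs a1 (smul_mem_Cs r1 hc)) (mul_mem hπ r1)
        (mul_mem r1 hπ)] at h
    rw [← hr.code_perm, ← a2, band_eq_true, commB_code, mapp_code, mapp_code, ← mask_symmDiff, ← mask_symmDiff,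
      ← mask_symmDiff, memL_eq_true, ← mask_empty, ← mask_univ]
    refine ⟨h.2, ?_⟩
    rcases h.1 with e | e <;> rw [e]
    · rw [symmDiff_self]; exact List.mem_cons_self
    · rw [compl_symmDiff_self]; exact List.mem_cons_of_mem _ List.mem_cons_self
  have x1 : InH M24 (nat_lit 61764042340984515751989378497496224) := inM_of_chk (by decide +kernel)
  have x2 : InH M24 (nat_lit 586996570012774159857373609459828448) := inM_of_chk (by decide +kernel)
  rw [xW, wordC_mono, show (perm (nat_lit 61764042340984515751989378497496224))⁻¹ = perm (nat_lit 586996570012774159857373609459828448) from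
    code_inj (by rw [← pinv_code, x1.code_perm, x2.code_perm]; decide +kernel)] at h1
  have h3 := allL_eq_true.1 (allL_eq_true.1 (show allL (fun p => allL (fun c =>
    bimp (band (commB p (nat_lit 586996570012774159857373609459828448)) (memL (Nat.xor (Nat.xor c (mapp p 12382234))
      (Nat.xor 12382234 (mapp (nat_lit 586996570012774159857373609459828448) c))) [0, full]))
      (bimp (band (commB p rB) (memL (Nat.xor (Nat.xor c (mapp p 255921)) (Nat.xor 255921 (mapp rB c))) [0, full]))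
      (band (Nat.beq p pone) (bor (Nat.beq c 0) (Nat.beq c 8241104))))) DL) TL = true by decide +kernel) _
      (mem_TL hπ hf)) _ (mem_DL hc hd)
  have h4 := bimp_eq_true.1 (bimp_eq_true.1 h3 (key (by decide +kernel) x2 h1)) (key (by decide +kernel) rB_in h2)
  rw [band_eq_true, bor_eq_true, beq_iff, beq_iff, beq_iff, ← code_one, ← mask_empty, ← mask_OOc, code_inj.eq_iff,
    mask_inj.eq_iff, mask_inj.eq_iff] at h4
  rw [h4.1, pC_one, mul_one]
  exact h4.2.imp (fun e => by rw [e, eps_empty, map_one]) fun e => by rw [e, mk1_compl OO_Cs, zb]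

theorem ncard_fix_rB : {c : Finset Pt | c ∈ Cs ∧ (perm rB • c = c ∨ perm rB • c = cᶜ)}.ncard ≤ 128 := by
  rw [← show cntR (fun k => force (cw k) fun c => force (mapp rB c) fun d =>
    bor (Nat.beq d c) (Nat.beq d (Nat.xor full c))) (2 ^ 12) = 128 by decide +kernel, ← ncard_fin]
  refine le_trans (Set.ncard_le_ncard (fun c hc => ?_)) (Set.ncard_image_le (f := fun k : Fin (2 ^ 12) => unmask (cw k)))
  obtain ⟨k, hk, e⟩ := exists_cw hc.1
  refine ⟨⟨k, hk⟩, ?_, by simp only [e, unmask_mask]⟩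
  simp only [Set.mem_setOf, force_eq, e]
  rw [← rB_in.code_perm, mapp_code, ← mask_compl, bor_eq_true, beq_iff, beq_iff]
  exact hc.2.imp (congrArg _) (congrArg _)

variable {G : Type u} [Group G] {Θ : Spor.Co1 → G} {Q Qs : Subgroup G} {z s : G}

namespace Am

variable (M : Am Θ Qb zb sb Q z s)
include M

theorem into_N {R : Subgroup G} (hR : IsPGroup 2 R) (hH : ∀ r ∈ R, Commute r z) : ∃ g, mk1 g ∈ centralizer {zb} ∧
    ∀ r ∈ R, ∃ c ∈ Cs, ∃ π ∈ St OO, (Θ (mk1 g))⁻¹ * r * Θ (mk1 g) = Θ (mk1 (eps c * pC π)) := by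
  have m : ∀ g : centralizer ({eps OO} : Set Co0), mk1 g ∈ centralizer {zb} := fun g =>
    mem_cent_iff.2 (comm_zb.2 (mem_cent_iff.1 g.2))
  let ψ : centralizer ({eps OO} : Set Co0) →* G := M.H.hom.comp ((mk1.comp (Subgroup.subtype _)).codRestrict _ m)
  obtain ⟨g, hg⟩ := exists_conj_of_odd (Mon.subgroupOf _) (R.comap ψ) (hR.comap_of_ker_isPGroup _ fun x => ⟨1, by
    rcases mk1_eq_one.1 (M.H.inj _ (m x) x.2) with e | e
    · rw [show x = 1 from Subtype.ext (Subtype.ext e), one_pow]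
    · exact Subtype.ext (Subtype.ext ((pow_two _).trans (e ▸ ng_mul_ng)))⟩) (by
    have := (Mon.subgroupOf (centralizer ({eps OO} : Set Co0))).card_mul_index
    rw [← inf_subgroupOf_left, Nat.card_congr (subgroupOfEquivOfLe inf_le_left).toEquiv, card_cent_Mon,
      card_cent_OO] at this
    rw [← inf_subgroupOf_left]
    omega)
  refine ⟨g, m g, fun r hr => ?_⟩
  obtain ⟨x, hx, rfl⟩ := M.H.surj r (mem_cent_iff.2 (hH r hr))
  obtain ⟨y, rfl⟩ := mk1_surj x
  have hy := mem_cent_iff.2 (comm_zb.1 (mem_cent_iff.1 hx))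
  obtain ⟨c, hc, π, hπ, e⟩ := mem_Mon_iff.1 (hg ⟨y, hy⟩ hr)
  exact ⟨c, hc, π, ⟨hπ, (mono_comm_eps hc OO_Cs hπ).1 (by rw [← e]; exact mem_cent_iff.1 (g⁻¹ * (⟨y, hy⟩ : centralizer _) * g).2)⟩,
    ((map_mul ψ _ _).trans (congrArg (· * ψ g) ((map_mul ψ g⁻¹ ⟨y, hy⟩).trans
      (congrArg (· * _) (map_inv ψ g))))).symm.trans (congrArg (fun x => Θ (mk1 x)) e)⟩

theorem inv_cases [Finite G] (h : LE Q z) {t : G} (ht : orderOf t = 2) :
    IsConj t z ∨ IsConj t (Θ (mk1 (eps (unmask D0)))) ∨ IsConj t (Θ (mk1 bb)) := by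
  have p2 : ∀ {t : G}, orderOf t = 2 → IsPGroup 2 (zpowers t) := fun h =>
    IsPGroup.of_card (n := 1) (by rw [Nat.card_zpowers, h, pow_one])
  have oc : ∀ {a b : G}, IsConj a b → orderOf a = 2 → orderOf b = 2 := fun h e => by
    obtain ⟨c, rfl⟩ := isConj_iff.1 h
    exact (MulEquiv.orderOf_eq (MulAut.conj c) _).trans e
  have cj : ∀ a g : G, IsConj a (g⁻¹ * a * g) := fun a g => isConj_iff.2 ⟨g⁻¹, by rw [inv_inv]⟩
  have hA : ∀ x ∈ M.A, IsConj t x → IsConj t z ∨ IsConj t (Θ (mk1 (eps (unmask D0)))) ∨ IsConj t (Θ (mk1 bb)) :=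
    fun x hx e => by
      obtain ⟨n, -, r | r⟩ := M.A_cases hx (of_orderOf (oc e ht) (by norm_num)).2
      exacts [Or.inl (e.trans (isConj_iff.2 ⟨n, r⟩)), Or.inr (Or.inl (e.trans (isConj_iff.2 ⟨n, r⟩)))]
  obtain ⟨g, hg⟩ := conj_into h (p2 ht)
  have c1 := cj t g
  obtain ⟨k, -, hk⟩ := M.into_N (p2 (oc c1 ht)) (by rintro _ ⟨n, rfl⟩; exact (hg t (mem_zpowers t)).zpow_left n)
  obtain ⟨c, hc, π, hπ, e⟩ := hk _ (mem_zpowers _)
  have c2 := c1.trans (cj _ (Θ (mk1 k)))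
  rw [e] at c2
  obtain ⟨f, f1, f2, -⟩ := M.exists_f
  have e1 := M.f_eq f2 (n := ⟨_, M.mon_N hc hπ⟩) hc hπ rfl
  by_cases h1 : π = 1
  · rw [h1, pC_one, mul_one] at c2
    exact hA _ (M.a_mem hc) c2
  have h2 : π ^ 2 = 1 := by
    rw [← e1, ← coe_pow, ← map_pow, show (⟨_, M.mon_N hc hπ⟩ ^ 2 : normalizer (M.A : Set G)) = 1 from
      Subtype.ext (of_orderOf (oc c2 ht) (by norm_num)).1, map_one, coe_one]
  obtain ⟨κ, hκ, e2⟩ : ∃ κ ∈ M24, κ * π * κ⁻¹ = perm r2A ∨ κ * π * κ⁻¹ = perm rB := by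
    obtain ⟨κ, hκ, r | r⟩ := classes_two hπ.1 h2 h1
    exacts [⟨κ, hκ, Or.inl r⟩, (conj_rB ⟨κ, hκ, r⟩).imp fun _ h => ⟨h.1, Or.inr h.2⟩]
  obtain ⟨n, hn⟩ := f1 ⟨κ, hκ⟩
  have e3 : (f (n * ⟨_, M.mon_N hc hπ⟩ * n⁻¹) : Perm Pt) = κ * π * κ⁻¹ := by
    rw [map_mul, map_mul, map_inv, hn, coe_mul, coe_mul, e1, coe_inv]
  obtain ⟨d, hd, ρ, hρ, e4⟩ := M.exists_mon (M.comm_z f2 (e3 ▸ by
    rcases e2 with r | r <;> rw [r]; exacts [r2A_St, rB_St])) (n * ⟨_, M.mon_N hc hπ⟩ * n⁻¹).2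
  have c3 : IsConj t (Θ (mk1 (eps d * pC ρ))) := c2.trans (isConj_iff.2 ⟨n, e4.symm⟩)
  have m := mon_H hd hρ
  obtain ⟨u, hu, r⟩ := coset_cases (by rw [← M.f_eq f2 hd hρ e4, e3]; exact e2) hd (M.H.inj _ (mul_mem m m) (by
    rw [M.H.mul _ m _ m, ← pow_two]; exact (of_orderOf (oc c3 ht) (by norm_num)).1))
  have c4 := c3.trans (isConj_iff.2 ⟨_, (M.H.conj hu m).symm⟩)
  rcases r with ⟨a, ha, r⟩ | r <;> rw [r] at c4
  exacts [hA _ (M.a_mem ha) c4, Or.inr (Or.inr c4)]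

theorem dvd_cent_t [Finite G] : 2 ^ 11 * 190080 ∣ Nat.card (centralizer ({Θ (mk1 (eps (unmask D0)))} : Set G)) := by
  obtain ⟨f, f1, f2, f3⟩ := M.exists_f
  have hD := (mem_dodecads.1 D0_mem).1
  have := card_eq_ker_mul_map f (((St ({unmask D0, Finset.univ \ unmask D0} : Finset (Finset Pt))).subgroupOf M24).comap f)
  rw [map_comap_eq_self_of_surjective f1, inf_eq_left.2 (ker_le_comap _ _), f3,
    Nat.card_congr (subgroupOfEquivOfLe le_normalizer).toEquiv, M.card_A,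
    Nat.card_congr (subgroupOfEquivOfLe inf_le_left).toEquiv, card_stab_pair D0_mem,
    ← card_map_of_injective (subtype_injective _)] at this
  refine this ▸ card_dvd_of_le ?_
  rintro _ ⟨n, hn, rfl⟩
  refine Loc.mem_cent1.2 ((f2 n _ hD).trans ((M.a_inj (smul_mem_Cs (f n).2 hD) hD).2 ?_))
  have h1 : (f n : Perm Pt) • unmask D0 ∈ ({unmask D0, Finset.univ \ unmask D0} : Finset (Finset Pt)) :=
    (show _ • _ = _ from hn.2) ▸ Finset.smul_mem_smul_finset (Finset.mem_insert_self _ _)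
  simpa only [Finset.mem_insert, Finset.mem_singleton, ← Finset.compl_eq_univ_sdiff] using h1

theorem not_dvd_cent_b [Finite G] (h : TH Q Qs z s 512 174182400) :
    ¬ 2 ^ 18 ∣ Nat.card (centralizer ({Θ (mk1 bb)} : Set G)) := fun hd => by
  set b := Θ (mk1 bb) with hb
  have b2 : b ^ 2 = 1 := by rw [pow_two, ← M.H.mul _ bb_H _ bb_H, ← map_mul, bb_sq, mk1_ng, M.H.one]
  have bz : Commute b z := mem_cent_iff.1 (M.H.mem _ bb_H)
  have x8 : Θ (mk1 (wordC xW)) ^ 8 = z := by rw [← M.H.pow xW_H, xW_pow, M.z]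
  obtain ⟨P, hP⟩ := (isP_zpowers (x := (⟨b, mem_cent_iff.2 (Commute.refl b)⟩ : centralizer ({b} : Set G))) (p := 2)
    (k := 1) (Subtype.ext b2)).exists_le_sylow
  obtain ⟨π0, hm⟩ := h.model8p
  obtain ⟨g, hg, g1⟩ := exists_max_p (L := centralizer {b}) (H := centralizer {z}) (S0 := zpowers (Θ (mk1 (wordC xW))))
    (p := 2) (isP_zpowers (k := 4) (by rw [show 2 ^ 4 = 8 * 2 from rfl, pow_mul, x8, pow_two, h.left.z_sq]))
    (zpowers_le.2 (mem_cent_iff.2 ((M.H.comm_iff xW_H bb_H).2 xW_b))) (zpowers_le.2 (M.H.mem _ xW_H))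
    (fun S a1 a2 _ a4 y hy hn => by
      have m := (mem_normalizer_iff.1 hn _).1 (a2 (mem_zpowers _))
      obtain ⟨k, hk⟩ := a1 ⟨_, m⟩
      have q := pow_mem_Q h.left hm (n := 3) (by simp [Module.finrank_zero_of_subsingleton]) (mem_cent_iff.1 (a4 m)) (congrArg Subtype.val hk)
      rw [conj_pow, show 2 ^ 3 = 8 from rfl, x8] at q
      obtain ⟨u, hu, e⟩ := M.Q_surj le_Qb.le_cent (card_Qb.trans h.cQ.symm) q
      have uH := le_Qb.le_cent hu
      rcases cent_xb hu ((M.H.comm_iff uH xW_H).1 (by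
        have := (mem_cent_iff.1 (a4 ((mem_normalizer_iff''.1 hn _).1 (a2 (mem_zpowers _))))).symm.map (MulAut.conj y)
        rw [e]
        simpa [mul_assoc] using this)) ((M.H.comm_iff uH bb_H).1 (e ▸ ((mem_cent_iff.1 hy).mul_left bz.symm).mul_left
          (mem_cent_iff.1 hy).inv_left)) with r | r <;> rw [r] at e
      · exact absurd (by simpa using e.symm.trans M.H.one) h.left.z_ne
      · exact Loc.mem_cent1.2 (e.symm.trans M.z))
    (P.isPGroup'.map (Subgroup.subtype _)) (map_subtype_le _)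
  obtain ⟨k, kH, hk⟩ := M.into_N ((P.isPGroup'.map (Subgroup.subtype _)).map (MulAut.conj g⁻¹).toMonoidHom) (by
    rintro _ ⟨r, hr, rfl⟩
    simpa using mem_cent_iff.1 (g1 r hr))
  obtain ⟨c, hc, π, hπ, e⟩ := hk b ⟨b, ⟨_, hP (mem_zpowers _), rfl⟩, Loc.mem_cent1.1 (inv_mem hg)⟩
  obtain ⟨f, f1, f2, f3⟩ := M.exists_f
  have e1 : eps c * pC π * (eps c * pC π) = ng := by
    have e' := e
    rw [hb, ← M.H.inv kH, ← M.H.mul _ (inv_mem kH) _ bb_H, ← M.H.mul _ (mul_mem (inv_mem kH) bb_H) _ kH,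
      M.H.eq_iff (mul_mem (mul_mem (inv_mem kH) bb_H) kH) (mon_H hc hπ), ← map_inv, ← map_mul, ← map_mul, eq_comm,
      mk1_eq] at e'
    have : k⁻¹ * bb * k * (k⁻¹ * bb * k) = ng := by
      rw [show k⁻¹ * bb * k * (k⁻¹ * bb * k) = k⁻¹ * (bb * bb * k) by group, bb_sq, ← ng_comm, inv_mul_cancel_left]
    rcases e' with r | r <;> rw [r]
    · exact this
    · rw [mul_assoc, ← mul_assoc _ ng, ng_comm, mul_assoc, this, ng_mul_ng, mul_one]
  rw [mono_mul hc hc hπ.1 hπ.1, ← mul_one ng, ← pC_one] at e1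
  obtain ⟨e2, e3⟩ := mono_inj (mul_mem hπ.1 hπ.1) (one_mem _) (symmDiff_mem_Cs hc (smul_mem_Cs hπ.1 hc))
    univ_mem_Cs e1
  have nf : ∀ p, π p ≠ p := fun p r => by
    have := e2 ▸ Finset.mem_univ p
    have e : p ∈ π • c ↔ p ∈ c := by
      conv_lhs => rw [← r]
      exact Finset.smul_mem_smul_finset_iff π
    rw [Finset.mem_symmDiff, e] at this
    tauto
  obtain ⟨κ, hκ, e4⟩ := conj_rB (conj_2B hπ.1 (orderOf_eq_prime ((pow_two π).trans e3) fun r => nf none (r ▸ rfl)) nf)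
  obtain ⟨n, hn⟩ := f1 ⟨κ, hκ⟩
  have e5 : (f (n * ⟨_, M.mon_N hc hπ⟩ * n⁻¹) : Perm Pt) = perm rB := by
    rw [map_mul, map_mul, map_inv, hn, coe_mul, coe_mul, M.f_eq f2 (n := ⟨_, M.mon_N hc hπ⟩) hc hπ rfl, coe_inv, e4]
  let R := ((P : Subgroup _).map (centralizer ({b} : Set G)).subtype).map
    (MulAut.conj (n * (Θ (mk1 k))⁻¹ * g⁻¹)).toMonoidHom
  have RN : R ≤ normalizer (M.A : Set G) := by
    rintro _ ⟨r, hr, rfl⟩
    obtain ⟨d, hd, ρ, hρ, r1⟩ := hk _ ⟨r, hr, rfl⟩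
    have := mul_mem (mul_mem n.2 (M.mon_N hd hρ)) (inv_mem n.2)
    rw [← r1] at this
    simpa [mul_assoc] using this
  have c1 := card_eq_ker_mul_map f (R.subgroupOf _)
  rw [Nat.card_congr (subgroupOfEquivOfLe RN).toEquiv, Loc.card_map_conj,
    card_map_of_injective (subtype_injective _)] at c1
  have c2 : Nat.card ↥(f.ker ⊓ R.subgroupOf (normalizer (M.A : Set G))) ≤ 128 := by
    have key : ∀ x : ↥(f.ker ⊓ R.subgroupOf (normalizer (M.A : Set G))), ∃ d : {c : Finset Pt | c ∈ Cs ∧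
        (perm rB • c = c ∨ perm rB • c = cᶜ)}, Θ (mk1 (eps d)) = x := fun x => by
      obtain ⟨d, hd, r⟩ := M.mem_A.1 (show (x : G) ∈ M.A from f3.le x.2.1)
      refine ⟨⟨d, hd, (M.a_inj (smul_mem_Cs rB_St.1 hd) hd).1 ?_⟩, r⟩
      obtain ⟨_, ⟨y, -, rfl⟩, r'⟩ := x.2.2
      rw [← e5, ← f2 _ _ hd, r, show ((x : normalizer (M.A : Set G)) : G) = _ from r'.symm, mul_inv_eq_iff_eq_mul]
      have := (mem_cent_iff.1 y.2).map (MulAut.conj (n * (Θ (mk1 k))⁻¹ * g⁻¹))
      rw [coe_mul, coe_mul, coe_inv]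
      show n * Θ _ * _ * _ = _ * (n * Θ _ * _)
      rw [← e, show (Θ (mk1 k))⁻¹ * b = (Θ (mk1 k))⁻¹ * (g⁻¹ * b * g⁻¹⁻¹) by rw [Loc.mem_cent1.1 (inv_mem hg)]]
      simpa [mul_assoc] using this.symm.eq
    choose F hF using key
    exact (Nat.card_le_card_of_injective F fun a b e => Subtype.ext (Subtype.ext (by rw [← hF, ← hF, e]))).trans
      ncard_fix_rB
  obtain ⟨j, hj⟩ := IsPGroup.iff_card.1 (((P.isPGroup'.map (Subgroup.subtype _)).map
    (MulAut.conj (n * (Θ (mk1 k))⁻¹ * g⁻¹)).toMonoidHom).comap_subtype.map f)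
  have c3 := card_subgroup_dvd_card ((R.subgroupOf (normalizer (M.A : Set G))).map f)
  rw [card_M24, show Nat.card ((R.subgroupOf _).map f) = 2 ^ j from hj] at c3
  have c4 : j ≤ 10 := by
    by_contra r
    exact absurd ((pow_dvd_pow 2 (by omega : 11 ≤ j)).trans c3) (by decide)
  have c5 := Nat.le_of_dvd Nat.card_pos (P.pow_dvd_card_of_pow_dvd_card hd)
  rw [← c1, show Nat.card ((R.subgroupOf _).map f) = 2 ^ j from hj] at c5
  exact absurd (c5.trans (Nat.mul_le_mul c2 (Nat.pow_le_pow_right two_pos c4))) (by decide)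

end Am

end

end CA.Typ

theorem CA.Typ.realizeEqnsB3 : True := by
  have := @CA.Typ.cosChk.eq_1
  have := @CA.Typ.cosChk.eq_def
  have := @CA.Typ.cosChk.congr_simp
  have := @CA.Typ.dsB.eq_1
  have := @CA.Typ.dsB.eq_def
  have := @CA.Typ.dsB.congr_simp
  have := @CA.Typ.rpA.eq_1
  have := @CA.Typ.rpA.eq_def
  have := @CA.Typ.rpA.congr_simp
  have := @CA.Typ.rpB.eq_1
  have := @CA.Typ.rpB.eq_def
  have := @CA.Typ.rpB.congr_simp
  have := @CA.Typ.rB.eq_1
  have := @CA.Typ.rB.eq_def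
  have := @CA.Typ.rB.congr_simp
  have := @CA.Typ.bb.eq_1
  have := @CA.Typ.bb.eq_def
  have := @CA.Typ.bb.congr_simp
  have := @CA.Typ.xW.eq_1
  have := @CA.Typ.xW.eq_def
  have := @CA.Typ.xW.congr_simp
  have := @CA.Typ.weqm.eq_1
  have := @CA.Typ.weqm.eq_def
  have := @CA.Typ.weqm.congr_simp
  have := @CA.Typ.repChk.eq_1
  have := @CA.Typ.repChk.eq_def
  have := @CA.Typ.repChk.congr_simp
  have := @CA.Typ.dsA.eq_1
  have := @CA.Typ.dsA.eq_def
  have := @CA.Typ.dsA.congr_simp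
  trivial
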